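import Mathlib
import Cfsg.Agent.Lib.Linalg.Bridge

/-!
# Transvections as `1 + v wᵀ`

Rank one matrices are `vecMulVec v w`. A matrix `t` with `t - 1` of rank one and square zero (the
Prelude's `IsTransvection`, stated here without it) is `1 + vecMulVec v w` with `w ⬝ᵥ v = 0`. Such data
form a single orbit under `GL` (and under `SL` for `n ≥ 3`), so transvections are conjugate.
-/

set_option autoImplicit false

open Matrix Module

namespace Cfsg.Agent.Lib.Linalg.TransvectionForm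

open Cfsg.Agent.Lib.Linalg.Bridge

section General

variable {F : Type*} [Field F] {V : Type*} [AddCommGroup V] [Module F V]

/-- A refinement of `exists_det_correction`: the correction moves vectors in the direction `x`. -/
theorem exists_det_correction_dir [FiniteDimensional F V] (W : Submodule F V) {x : V} (hx : x ∉ W)
    (c : F) (hc : c ≠ 0) :
    ∃ s : V ≃ₗ[F] V, (∀ y ∈ W, s y = y) ∧ (∀ y, ∃ a : F, s y = y + a • x) ∧
      LinearMap.det (s : V →ₗ[F] V) = c := by
  obtain ⟨φ, hφ, hle⟩ := Submodule.exists_le_ker_of_notMem hx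
  set a : F := (c - 1) / φ x with ha
  have hval : 1 + φ (a • x) = c := by
    rw [map_smul, smul_eq_mul, ha]
    field_simp
    ring
  have hu : IsUnit (1 + φ (a • x)) := by
    rw [hval]; exact hc.isUnit
  refine ⟨LinearEquiv.dilatransvection hu, fun y hy => ?_, fun y => ⟨φ y * a, ?_⟩, ?_⟩
  · have : φ y = 0 := by simpa using hle hy
    rw [LinearEquiv.dilatransvection.apply, this, zero_smul, add_zero]
  · rw [LinearEquiv.dilatransvection.apply, smul_smul]
  · rw [LinearEquiv.dilatransvection.coe_toLinearMap, LinearMap.transvection.det, hval]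

/-- Nonzero vectors form a single orbit of the automorphism group. -/
theorem exists_equiv_apply_eq [FiniteDimensional F V] {x y : V} (hx : x ≠ 0) (hy : y ≠ 0) :
    ∃ g : V ≃ₗ[F] V, g x = y := by
  obtain ⟨g, hg⟩ := exists_equiv_extending (F ∙ x) (F ∙ y)
    ((LinearEquiv.toSpanNonzeroSingleton F V x hx).symm ≪≫ₗ
      LinearEquiv.toSpanNonzeroSingleton F V y hy)
  refine ⟨g, ?_⟩
  have hxmem : x ∈ F ∙ x := Submodule.mem_span_singleton_self x
  have := hg ⟨x, hxmem⟩
  rw [this]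
  have h1 : (LinearEquiv.toSpanNonzeroSingleton F V x hx).symm ⟨x, hxmem⟩ = 1 := by
    rw [LinearEquiv.symm_apply_eq]
    exact (LinearEquiv.toSpanNonzeroSingleton_one F V x hx).symm
  simp [h1]

/-- The kernel of a functional and a vector of value one are complementary. -/
theorem isCompl_ker_span {φ : V →ₗ[F] F} {u : V} (hu : φ u = 1) :
    IsCompl (LinearMap.ker φ) (F ∙ u) := by
  constructor
  · rw [Submodule.disjoint_def]
    intro x hx hx2
    obtain ⟨a, rfl⟩ := Submodule.mem_span_singleton.mp hx2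
    have : a = 0 := by simpa [hu] using hx
    simp [this]
  · rw [codisjoint_iff, eq_top_iff]
    intro x _
    rw [Submodule.mem_sup]
    refine ⟨x - φ x • u, by simp [hu], φ x • u, Submodule.smul_mem _ _ (Submodule.mem_span_singleton_self u), by simp⟩

/-- Given two pairs (nonzero vector in the kernel of a nonzero functional), some automorphism
carries one to the other. -/
theorem exists_equiv_of_flag [FiniteDimensional F V] {v v' : V} {φ φ' : V →ₗ[F] F}
    (hv : v ≠ 0) (hv' : v' ≠ 0) (hφ : φ ≠ 0) (hφ' : φ' ≠ 0) (hφv : φ v = 0) (hφv' : φ' v' = 0) :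
    ∃ g : V ≃ₗ[F] V, g v = v' ∧ ∀ x, φ' (g x) = φ x := by
  obtain ⟨u, hu⟩ : ∃ u, φ u = 1 := by
    obtain ⟨x, hx⟩ : ∃ x, φ x ≠ 0 := by
      by_contra h
      push Not at h
      exact hφ (LinearMap.ext h)
    exact ⟨(φ x)⁻¹ • x, by simp [hx]⟩
  obtain ⟨u', hu'⟩ : ∃ u, φ' u = 1 := by
    obtain ⟨x, hx⟩ : ∃ x, φ' x ≠ 0 := by
      by_contra h
      push Not at h
      exact hφ' (LinearMap.ext h)
    exact ⟨(φ' x)⁻¹ • x, by simp [hx]⟩
  have hu0 : u ≠ 0 := by
    rintro rfl
    simp at hu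
  have hu0' : u' ≠ 0 := by
    rintro rfl
    simp at hu'
  have hc := isCompl_ker_span hu
  have hc' := isCompl_ker_span hu'
  have hrank : finrank F (LinearMap.ker φ) = finrank F (LinearMap.ker φ') := by
    have h1 := Submodule.finrank_add_eq_of_isCompl hc
    have h2 := Submodule.finrank_add_eq_of_isCompl hc'
    rw [finrank_span_singleton hu0] at h1
    rw [finrank_span_singleton hu0'] at h2
    omega
  -- the automorphism on the kernels
  set vk : LinearMap.ker φ := ⟨v, hφv⟩ with hvk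
  set vk' : LinearMap.ker φ' := ⟨v', hφv'⟩ with hvk'
  have hvk0 : vk ≠ 0 := fun h => hv (congrArg Subtype.val h)
  have hvk0' : vk' ≠ 0 := fun h => hv' (congrArg Subtype.val h)
  set i : LinearMap.ker φ ≃ₗ[F] LinearMap.ker φ' := LinearEquiv.ofFinrankEq _ _ hrank
  obtain ⟨h, hh⟩ := exists_equiv_apply_eq (F := F) (V := LinearMap.ker φ')
    (x := i vk) (y := vk') (by simpa using hvk0) hvk0'
  set s : (F ∙ u) ≃ₗ[F] (F ∙ u') := (LinearEquiv.toSpanNonzeroSingleton F V u hu0).symm ≪≫ₗ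
      LinearEquiv.toSpanNonzeroSingleton F V u' hu0'
  obtain ⟨g, hg, hg2⟩ := exists_equiv_of_isCompl _ _ _ _ hc hc' (i ≪≫ₗ h) s
  refine ⟨g, ?_, fun x => ?_⟩
  · have := hg vk
    simp only [LinearEquiv.trans_apply, hh] at this
    exact this
  · -- decompose x
    have hx : x = (x - φ x • u) + φ x • u := by simp
    have hmem : x - φ x • u ∈ LinearMap.ker φ := by simp [hu]
    have hs : φ' (s ⟨u, Submodule.mem_span_singleton_self u⟩) = 1 := by
      have h1 : (LinearEquiv.toSpanNonzeroSingleton F V u hu0).symm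
          ⟨u, Submodule.mem_span_singleton_self u⟩ = 1 := by
        rw [LinearEquiv.symm_apply_eq]
        exact (LinearEquiv.toSpanNonzeroSingleton_one F V u hu0).symm
      simp [s, h1, hu']
    have h2 := hg ⟨_, hmem⟩
    have h3 := hg2 ⟨u, Submodule.mem_span_singleton_self u⟩
    have h4 : g x = g (x - φ x • u) + φ x • g u := by
      conv_lhs => rw [hx]
      rw [map_add, map_smul]
    have h5 : φ' ((i ≪≫ₗ h) ⟨_, hmem⟩ : LinearMap.ker φ') = 0 :=
      ((i ≪≫ₗ h) ⟨_, hmem⟩).2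
    rw [h4, map_add, map_smul, h2, h5, h3, hs]
    simp

end General

section Matrices

variable {ι : Type*} [Fintype ι] [DecidableEq ι] {F : Type*} [Field F]

omit [DecidableEq ι] in
/-- A rank one matrix is a `vecMulVec`. -/
theorem exists_vecMulVec_of_rank_eq_one {N : Matrix ι ι F} (h : N.rank = 1) :
    ∃ v w : ι → F, v ≠ 0 ∧ w ≠ 0 ∧ N = vecMulVec v w := by
  classical
  have h1 : finrank F (LinearMap.range N.mulVecLin) = 1 := h
  obtain ⟨⟨v, hvmem⟩, hv0, hspan⟩ := finrank_eq_one_iff'.mp h1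
  have hv : v ≠ 0 := fun hh => hv0 (Subtype.ext hh)
  have hw : ∀ j, ∃ c : F, N.mulVec (Pi.single j 1) = c • v := by
    intro j
    obtain ⟨c, hc⟩ := hspan ⟨N.mulVec (Pi.single j 1), ⟨_, rfl⟩⟩
    exact ⟨c, (congrArg Subtype.val hc).symm⟩
  choose w hw using hw
  have hN : N = vecMulVec v w := by
    ext i j
    have := congrFun (hw j) i
    simp only [mulVec_single_one, col_apply, Pi.smul_apply, smul_eq_mul] at this
    rw [this, vecMulVec_apply, mul_comm]
  refine ⟨v, w, hv, ?_, hN⟩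
  rintro rfl
  have : N = 0 := by rw [hN]; ext i j; simp [vecMulVec_apply]
  rw [this, rank_zero] at h
  exact zero_ne_one h

/-- Normal form of a transvection. -/
theorem exists_form_of_transvection {t : Matrix ι ι F} (h1 : (t - 1).rank = 1)
    (h2 : (t - 1) * (t - 1) = 0) :
    ∃ v w : ι → F, v ≠ 0 ∧ w ≠ 0 ∧ w ⬝ᵥ v = 0 ∧ t = 1 + vecMulVec v w := by
  obtain ⟨v, w, hv, hw, hN⟩ := exists_vecMulVec_of_rank_eq_one h1
  refine ⟨v, w, hv, hw, ?_, by rw [← hN]; simp⟩
  rw [hN, vecMulVec_mul_vecMulVec] at h2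
  by_contra hne
  obtain ⟨i, hi⟩ := Function.ne_iff.mp hv
  obtain ⟨j, hj⟩ := Function.ne_iff.mp hw
  have := congrFun (congrFun h2 i) j
  simp only [vecMulVec_apply, Pi.smul_apply, smul_eq_mul, Matrix.zero_apply] at this
  simp_all

omit [DecidableEq ι] in
/-- A matrix of rank zero is zero. -/
theorem eq_zero_of_rank_eq_zero {N : Matrix ι ι F} (h : N.rank = 0) : N = 0 := by
  classical
  have h1 : finrank F (LinearMap.range N.mulVecLin) = 0 := h
  rw [Submodule.finrank_eq_zero, LinearMap.range_eq_bot] at h1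
  ext i j
  have := congrFun (LinearMap.congr_fun h1 (Pi.single j 1)) i
  simpa using this

/-- The converse of `exists_form_of_transvection`. -/
theorem transvection_of_form {v w : ι → F} (hv : v ≠ 0) (hw : w ≠ 0) (hwv : w ⬝ᵥ v = 0) :
    ((1 + vecMulVec v w : Matrix ι ι F) - 1).rank = 1 ∧
      ((1 + vecMulVec v w : Matrix ι ι F) - 1) * ((1 + vecMulVec v w : Matrix ι ι F) - 1) = 0 := by
  rw [add_sub_cancel_left]
  constructor
  · apply le_antisymm (rank_vecMulVec_le v w)
    rw [Nat.one_le_iff_ne_zero]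
    intro h0
    have h00 := eq_zero_of_rank_eq_zero h0
    obtain ⟨i, hi⟩ := Function.ne_iff.mp hv
    obtain ⟨j, hj⟩ := Function.ne_iff.mp hw
    have := congrFun (congrFun h00 i) j
    simp only [vecMulVec_apply, Matrix.zero_apply] at this
    simp_all
  · rw [vecMulVec_mul_vecMulVec, hwv, zero_smul]
    ext i j
    simp [vecMulVec_apply]

/-- Flags `(v, w)` with `w ⬝ᵥ v = 0` form one orbit under automorphisms. -/
theorem exists_equiv_of_dot_flag {v v' w w' : ι → F} (hv : v ≠ 0) (hv' : v' ≠ 0) (hw : w ≠ 0)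
    (hw' : w' ≠ 0) (hwv : w ⬝ᵥ v = 0) (hwv' : w' ⬝ᵥ v' = 0) :
    ∃ g : (ι → F) ≃ₗ[F] (ι → F), g v = v' ∧ ∀ x, w' ⬝ᵥ g x = w ⬝ᵥ x := by
  have hne : ∀ {z : ι → F}, z ≠ 0 → dotProductEquiv F ι z ≠ 0 := fun hz h =>
    hz ((dotProductEquiv F ι).map_eq_zero_iff.mp h)
  obtain ⟨g, hg, hg2⟩ := exists_equiv_of_flag hv hv' (hne hw) (hne hw') (φ := dotProductEquiv F ι w)
    (φ' := dotProductEquiv F ι w') (by simpa using hwv) (by simpa using hwv')
  exact ⟨g, hg, fun x => by simpa using hg2 x⟩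

/-- Flags `(v, w)` with `w ⬝ᵥ v = 0` form one orbit under automorphisms of determinant one,
in dimension at least three. -/
theorem exists_det_one_of_dot_flag (h3 : 3 ≤ Fintype.card ι) {v v' w w' : ι → F} (hv : v ≠ 0)
    (hv' : v' ≠ 0) (hw : w ≠ 0) (hw' : w' ≠ 0) (hwv : w ⬝ᵥ v = 0) (hwv' : w' ⬝ᵥ v' = 0) :
    ∃ g : (ι → F) ≃ₗ[F] (ι → F), g v = v' ∧ (∀ x, w' ⬝ᵥ g x = w ⬝ᵥ x) ∧
      LinearMap.det (g : (ι → F) →ₗ[F] (ι → F)) = 1 := by
  obtain ⟨g₀, hg₀, hg₁⟩ := exists_equiv_of_dot_flag hv hv' hw hw' hwv hwv'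
  have hd : LinearMap.det (g₀ : (ι → F) →ₗ[F] (ι → F)) ≠ 0 := (LinearEquiv.isUnit_det' g₀).ne_zero
  -- a vector in the kernel of `w` off the line of `v`
  obtain ⟨x, hx, hxv⟩ : ∃ x : ι → F, w ⬝ᵥ x = 0 ∧ x ∉ (F ∙ v) := by
    by_contra hcon
    push Not at hcon
    -- the kernel of `w` lies in the line of `v`
    have hle : LinearMap.ker (dotProductEquiv F ι w) ≤ F ∙ v := fun x hx => hcon x (by simpa using hx)
    have h1 := LinearMap.finrank_range_add_finrank_ker (dotProductEquiv F ι w)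
    have h2 : finrank F (LinearMap.ker (dotProductEquiv F ι w)) ≤ 1 := by
      calc _ ≤ finrank F (F ∙ v) := Submodule.finrank_mono hle
        _ = 1 := finrank_span_singleton hv
    have h3' : finrank F (LinearMap.range (dotProductEquiv F ι w)) ≤ 1 := by
      calc _ ≤ finrank F F := Submodule.finrank_le _
        _ = 1 := finrank_self F
    rw [Module.finrank_fintype_fun_eq_card] at h1
    omega
  obtain ⟨s, hs1, hs2, hs3⟩ := exists_det_correction_dir (F ∙ v) hxv _ (inv_ne_zero hd)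
  refine ⟨s ≪≫ₗ g₀, ?_, fun y => ?_, ?_⟩
  · rw [LinearEquiv.trans_apply, hs1 v (Submodule.mem_span_singleton_self v), hg₀]
  · rw [LinearEquiv.trans_apply, hg₁]
    obtain ⟨a, ha⟩ := hs2 y
    rw [ha, dotProduct_add, dotProduct_smul, hx]
    simp
  · rw [LinearEquiv.coe_trans, LinearMap.det_comp, hs3, mul_inv_cancel₀ hd]

/-- The intertwining property for `1 + vecMulVec v w`. -/
theorem intertwine_of_flag {v v' w w' : ι → F} (g : (ι → F) ≃ₗ[F] (ι → F)) (hg : g v = v')
    (hg2 : ∀ x, w' ⬝ᵥ g x = w ⬝ᵥ x) (x : ι → F) :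
    g ((1 + vecMulVec v w : Matrix ι ι F).mulVec x) = (1 + vecMulVec v' w' : Matrix ι ι F).mulVec (g x) := by
  simp only [Matrix.add_mulVec, Matrix.one_mulVec, vecMulVec_mulVec, map_add]
  simp [hg, hg2]

/-- Transvections of `GL` are conjugate. -/
theorem isConj_GL_of_transvection {s t : GL ι F}
    (hs1 : ((s : Matrix ι ι F) - 1).rank = 1) (hs2 : ((s : Matrix ι ι F) - 1) * ((s : Matrix ι ι F) - 1) = 0)
    (ht1 : ((t : Matrix ι ι F) - 1).rank = 1) (ht2 : ((t : Matrix ι ι F) - 1) * ((t : Matrix ι ι F) - 1) = 0) :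
    IsConj s t := by
  obtain ⟨v, w, hv, hw, hwv, hs⟩ := exists_form_of_transvection hs1 hs2
  obtain ⟨v', w', hv', hw', hwv', ht⟩ := exists_form_of_transvection ht1 ht2
  obtain ⟨g, hg, hg2⟩ := exists_equiv_of_dot_flag hv hv' hw hw' hwv hwv'
  apply isConj_GL_of_equiv g
  intro x
  rw [hs, ht]
  exact intertwine_of_flag g hg hg2 x

/-- Transvections of `SL_n` are conjugate in `SL_n` for `n ≥ 3`. -/
theorem isConj_SL_of_transvection (h3 : 3 ≤ Fintype.card ι) {s t : SpecialLinearGroup ι F}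
    (hs1 : ((s : Matrix ι ι F) - 1).rank = 1) (hs2 : ((s : Matrix ι ι F) - 1) * ((s : Matrix ι ι F) - 1) = 0)
    (ht1 : ((t : Matrix ι ι F) - 1).rank = 1) (ht2 : ((t : Matrix ι ι F) - 1) * ((t : Matrix ι ι F) - 1) = 0) :
    IsConj s t := by
  obtain ⟨v, w, hv, hw, hwv, hs⟩ := exists_form_of_transvection hs1 hs2
  obtain ⟨v', w', hv', hw', hwv', ht⟩ := exists_form_of_transvection ht1 ht2
  obtain ⟨g, hg, hg2, hd⟩ := exists_det_one_of_dot_flag h3 hv hv' hw hw' hwv hwv'
  apply isConj_SL_of_equiv g hd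
  intro x
  rw [hs, ht]
  exact intertwine_of_flag g hg hg2 x

end Matrices

end Cfsg.Agent.Lib.Linalg.TransvectionForm
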