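import Mathlib

/-!
Abelian groups acting freely and irreducibly on a vector space are cyclic; free actions and divisibility
of orders.
-/

set_option autoImplicit false
set_option linter.deprecated false

namespace Cfsg.Agent.Lib.Linalg.FreeAbelian

/-- A finite group acting freely on a finite set: its order divides the size of the set. -/
theorem card_dvd_of_free {G X : Type*} [Group G] [Finite G] [MulAction G X] [Finite X]
    (hfree : ∀ (g : G) (x : X), g • x = x → g = 1) : Nat.card G ∣ Nat.card X := by
  classical
  haveI := Fintype.ofFinite G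
  haveI := Fintype.ofFinite X
  letI : Fintype (MulAction.orbitRel.Quotient G X) := Fintype.ofFinite _
  have hstab : ∀ x : X, Fintype.card (MulAction.stabilizer G x) = 1 := by
    intro x
    rw [Fintype.card_eq_one_iff]
    refine ⟨1, ?_⟩
    rintro ⟨g, hg⟩
    apply Subtype.ext
    exact hfree g x hg
  have h := MulAction.card_eq_sum_card_group_div_card_stabilizer G X
  simp only [hstab, Nat.div_one] at h
  rw [Nat.card_eq_fintype_card, Nat.card_eq_fintype_card, h]
  apply Finset.dvd_sum
  intro i _
  exact dvd_rfl

theorem card_ne_zero {U : Type*} [AddCommGroup U] [Finite U] :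
    Nat.card {u : U // u ≠ 0} = Nat.card U - 1 := by
  classical
  haveI := Fintype.ofFinite U
  simp only [Nat.card_eq_fintype_card]
  rw [Fintype.card_subtype_compl]
  simp

/-- An abelian group acting on a vector space, freely on non-zero vectors and irreducibly, is
cyclic (it embeds in the multiplicative group of a field: Schur's lemma). -/
theorem isCyclic_of_free_irreducible {A k W : Type*} [Group A] [Finite A] [Field k] [AddCommGroup W]
    [Module k W] [Nontrivial W] (hcomm : ∀ a b : A, a * b = b * a)
    (ρ : A →* Module.End k W)
    (hfree : ∀ a v, v ≠ 0 → ρ a v = v → a = 1)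
    (hirr : ∀ U : Submodule k W, (∀ a, ∀ v ∈ U, ρ a v ∈ U) → U = ⊥ ∨ U = ⊤) : IsCyclic A := by
  classical
  set S : Set (Module.End k W) := Set.range ρ with hS
  have hScomm : ∀ x ∈ S, ∀ y ∈ S, x * y = y * x := by
    rintro _ ⟨a, rfl⟩ _ ⟨b, rfl⟩
    rw [← map_mul, ← map_mul, hcomm]
  let R := Algebra.adjoin k S
  letI hRc : CommRing R := Algebra.adjoinCommRingOfComm k hScomm
  have hmemS : ∀ a : A, ρ a ∈ R := fun a => Algebra.subset_adjoin ⟨a, rfl⟩
  -- `R` is a domain
  have hcommR : ∀ (x : R) (a : A), (x : Module.End k W) * ρ a = ρ a * x := by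
    intro x a
    have := mul_comm x (⟨ρ a, hmemS a⟩ : R)
    exact congrArg Subtype.val this
  have hinj : ∀ x : R, x ≠ 0 → Function.Injective (x : Module.End k W) := by
    intro x hx
    have hker := hirr (LinearMap.ker (x : Module.End k W)) (by
      intro a v hv
      rw [LinearMap.mem_ker] at hv ⊢
      have h1 := LinearMap.congr_fun (hcommR x a) v
      simp only [Module.End.mul_apply] at h1
      rw [h1, hv, map_zero])
    rcases hker with h1 | h1
    · exact LinearMap.ker_eq_bot.mp h1
    · exfalso
      apply hx
      apply Subtype.ext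
      exact LinearMap.ker_eq_top.mp h1
  haveI hnzd : NoZeroDivisors R := by
    refine ⟨?_⟩
    intro x y hxy
    by_contra h
    push Not at h
    obtain ⟨hx, hy⟩ := h
    apply hy
    apply Subtype.ext
    apply LinearMap.ext
    intro v
    apply hinj x hx
    have h1 : ((x * y : R) : Module.End k W) v = 0 := by
      rw [hxy]; rfl
    change (x : Module.End k W) ((y : Module.End k W) v) = (x : Module.End k W) 0
    rw [map_zero]
    exact h1
  haveI hnt : Nontrivial R := by
    refine ⟨⟨0, 1, ?_⟩⟩
    intro h
    have h1 : (0 : Module.End k W) = 1 := congrArg Subtype.val h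
    obtain ⟨w, hw⟩ := exists_ne (0 : W)
    apply hw
    have := LinearMap.congr_fun h1 w
    simpa using this.symm
  haveI : IsDomain R := NoZeroDivisors.to_isDomain R
  let f : A →* R :=
    { toFun := fun a => ⟨ρ a, hmemS a⟩
      map_one' := by
        apply Subtype.ext
        exact map_one ρ
      map_mul' := by
        intro a b
        apply Subtype.ext
        exact map_mul ρ a b }
  have hf : Function.Injective f := by
    rw [injective_iff_map_eq_one]
    intro a ha
    have h1 : ρ a = 1 := congrArg Subtype.val ha
    obtain ⟨w, hw⟩ := exists_ne (0 : W)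
    apply hfree a w hw
    rw [h1]
    rfl
  exact isCyclic_of_injective_ringHom f hf

end Cfsg.Agent.Lib.Linalg.FreeAbelian
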