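import Mathlib
import Cfsg.Agent.Lib.Linalg.RCFType
import Cfsg.Agent.Lib.Linalg.Unipotent

/-!
# Unipotent classes of `GL n F`

The type of a unipotent matrix has all irreducible polynomials `X - 1`, and the conjugacy classes
of unipotent elements of `GL n F` correspond to the partitions of `n`.
-/

set_option autoImplicit false

open Polynomial Module
open Cfsg.Agent.Lib.Linalg.RCF Cfsg.Agent.Lib.Linalg.RCFType

namespace Cfsg.Agent.Lib.Linalg.UnipotentClasses

universe u

variable {F : Type u} [Field F]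

theorem irreducible_X_sub_one : Irreducible (X - 1 : F[X]) := by
  have := irreducible_X_sub_C (1 : F)
  simpa using this

theorem monic_X_sub_one : (X - 1 : F[X]).Monic := by
  have := monic_X_sub_C (1 : F)
  simpa using this

theorem natDegree_X_sub_one : (X - 1 : F[X]).natDegree = 1 := by
  have := natDegree_X_sub_C (1 : F)
  simpa using this

theorem X_sub_one_ne_X : (X - 1 : F[X]) ≠ X := by
  intro h
  have : (1 : F[X]) = 0 := by linear_combination -h
  exact one_ne_zero this

variable {ι : Type*} [Fintype ι] [DecidableEq ι]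

/-- Polynomials evaluated at `A` vs. `(A - 1) ^ N`. -/
theorem aeval_X_sub_one_pow (A : Matrix ι ι F) (N : ℕ) :
    aeval A ((X - 1 : F[X]) ^ N) = (A - 1) ^ N := by
  simp

/-- Divisibility of a power of `X - 1` by a power of a monic irreducible polynomial. -/
theorem dvd_X_sub_one_pow_iff {q : F[X]} (hqm : q.Monic) (hqi : Irreducible q) {e : ℕ} (he : 0 < e)
    (N : ℕ) : q ^ e ∣ (X - 1 : F[X]) ^ N ↔ q = X - 1 ∧ e ≤ N := by
  constructor
  · intro h
    have h1 : q ∣ (X - 1 : F[X]) ^ N := (dvd_pow_self q he.ne').trans h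
    have h2 : q ∣ (X - 1 : F[X]) := hqi.prime.dvd_of_dvd_pow h1
    have h3 : q = X - 1 := eq_of_monic_of_associated hqm monic_X_sub_one
      (hqi.associated_of_dvd irreducible_X_sub_one h2)
    subst h3
    exact ⟨rfl, (pow_dvd_pow_iff irreducible_X_sub_one.ne_zero irreducible_X_sub_one.not_isUnit).mp h⟩
  · rintro ⟨rfl, h⟩
    exact pow_dvd_pow _ h

/-- `A - 1` is nilpotent iff all the irreducible polynomials of `A` are `X - 1`. -/
theorem isNilpotent_sub_one_iff (A : Matrix ι ι F) :
    IsNilpotent (A - 1) ↔ ∀ a ∈ matType A, a.1 = X - 1 := by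
  constructor
  · rintro ⟨N, hN⟩ a ha
    rw [← aeval_X_sub_one_pow, aeval_matrix_eq_zero_iff] at hN
    have hadm := matType_adm A a ha
    exact ((dvd_X_sub_one_pow_iff hadm.1 hadm.2.1 hadm.2.2 N).mp (hN a ha)).1
  · intro h
    refine ⟨((matType A).map Prod.snd).sup, ?_⟩
    rw [← aeval_X_sub_one_pow, aeval_matrix_eq_zero_iff]
    intro a ha
    have hadm := matType_adm A a ha
    refine (dvd_X_sub_one_pow_iff hadm.1 hadm.2.1 hadm.2.2 _).mpr ⟨h a ha, ?_⟩
    exact Multiset.le_sup (Multiset.mem_map_of_mem Prod.snd ha)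

/-- Types whose irreducible polynomials are all `X - 1` correspond to partitions. -/
noncomputable def typeEquivPartition (n : ℕ) :
    {τ : Multiset (F[X] × ℕ) // IsGLType (Fin n) F τ ∧ ∀ a ∈ τ, a.1 = X - 1} ≃ Nat.Partition n where
  toFun τ := ⟨τ.1.map Prod.snd, by
      intro i hi
      obtain ⟨a, ha, rfl⟩ := Multiset.mem_map.mp hi
      exact (τ.2.1.1 a ha).1.2.2, by
      have h := τ.2.1.2
      rw [Fintype.card_fin] at h
      refine Eq.trans ?_ h
      congr 1
      refine Multiset.map_congr rfl fun a ha => ?_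
      rw [τ.2.2 a ha, natDegree_X_sub_one, mul_one]⟩
  invFun μ := ⟨μ.parts.map fun e => ((X - 1 : F[X]), e), by
      constructor
      · constructor
        · intro a ha
          obtain ⟨e, he, rfl⟩ := Multiset.mem_map.mp ha
          exact ⟨⟨monic_X_sub_one, irreducible_X_sub_one, μ.parts_pos he⟩, X_sub_one_ne_X⟩
        · rw [Multiset.map_map, Fintype.card_fin]
          refine Eq.trans ?_ μ.parts_sum
          congr 1
          refine Eq.trans (Multiset.map_congr rfl fun e _ => ?_) (Multiset.map_id _)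
          simp [natDegree_X_sub_one]
      · intro a ha
        obtain ⟨e, he, rfl⟩ := Multiset.mem_map.mp ha
        rfl⟩
  left_inv τ := by
    apply Subtype.ext
    simp only [Multiset.map_map]
    conv_rhs => rw [← Multiset.map_id τ.1]
    refine Multiset.map_congr rfl fun a ha => ?_
    simp [← τ.2.2 a ha]
  right_inv μ := by
    apply Nat.Partition.ext
    simp

/-- Counting classes of unipotent elements with an invariant property. -/
theorem card_unipotent_classes (n : ℕ) (P : Matrix.GeneralLinearGroup (Fin n) F → Prop)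
    (R : Multiset ℕ → Prop)
    (hP : ∀ g, P g ↔ (∀ a ∈ matType (g : Matrix (Fin n) (Fin n) F), a.1 = X - 1) ∧
      R ((matType (g : Matrix (Fin n) (Fin n) F)).map Prod.snd)) :
    Nat.card {C : ConjClasses (Matrix.GeneralLinearGroup (Fin n) F) // ∃ g, P g ∧ ConjClasses.mk g = C} =
      Nat.card {μ : Nat.Partition n // R μ.parts} := by
  rw [card_classes_eq P (fun τ => (∀ a ∈ τ, a.1 = X - 1) ∧ R (τ.map Prod.snd)) hP]
  refine Nat.card_congr ?_
  refine Equiv.trans ?_ (Equiv.subtypeEquiv (typeEquivPartition (F := F) n) (p := fun τ => R (τ.1.map Prod.snd))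
    (q := fun μ => R μ.parts) fun τ => Iff.rfl)
  exact {
    toFun := fun τ => ⟨⟨τ.1, τ.2.1, τ.2.2.1⟩, τ.2.2.2⟩
    invFun := fun τ => ⟨τ.1.1, τ.1.2.1, τ.1.2.2, τ.2⟩
    left_inv := fun τ => rfl
    right_inv := fun τ => rfl }

end Cfsg.Agent.Lib.Linalg.UnipotentClasses
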