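import Mathlib
import Cfsg.Prelude.Def_AxialAlgebras

/-!
# Majorana axes: the consequences of the definition that the dihedral computation uses

For a Majorana pair `(μ, a)` with `B a a = 1` we extract the list of facts `AxisFacts`: the action of
`a` on the odd part `x - μ x`, the formula for `a (a x)` and the three fusion rules in the form needed.
The facts transport along automorphisms and determine `μ` from `a`.
-/

set_option autoImplicit false

namespace Cfsg.Agent.Lib.Linalg.Majorana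

open Cfsg.Axial

variable {V : Type*} [AddCommGroup V] [Module ℝ V]

/-- The facts about a Majorana pair which the rest of the argument uses. -/
structure AxisFacts (mul : V →ₗ[ℝ] V →ₗ[ℝ] V) (B : LinearMap.BilinForm ℝ V) (μ : V ≃ₗ[ℝ] V) (a : V) :
    Prop where
  idem : mul a a = a
  norm : B a a = 1
  fix : μ a = a
  mulμ : ∀ u v, μ (mul u v) = mul (μ u) (μ v)
  Bμ : ∀ u v, B (μ u) (μ v) = B u v
  odd : ∀ x, mul a (x - μ x) = (1 / 32 : ℝ) • (x - μ x)
  sq : ∀ x, mul a (mul a x) =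
    (1 / 4 : ℝ) • mul a x + ((3 / 4 : ℝ) * B x a) • a - (7 / 2048 : ℝ) • (x - μ x)
  f00 : ∀ u v, mul a u = 0 → mul a v = 0 → mul a (mul u v) = 0
  f0q : ∀ u v, mul a u = 0 → mul a v = (1 / 4 : ℝ) • v → mul a (mul u v) = (1 / 4 : ℝ) • mul u v
  fqq : ∀ u v, mul a u = (1 / 4 : ℝ) • u → mul a v = (1 / 4 : ℝ) • v →
    mul a (mul u v) = ((1 / 4 : ℝ) * B u v) • a

section Extract

variable {mul : V →ₗ[ℝ] V →ₗ[ℝ] V} {B : LinearMap.BilinForm ℝ V} {μ : V ≃ₗ[ℝ] V} {a : V}

lemma mem_eigen_iff {x : V} {c : ℝ} : x ∈ eigen mul a c ↔ mul a x = c • x :=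
  Module.End.mem_eigenspace_iff

lemma law00 : monsterLaw (1 / 4 : ℝ) (1 / 32) 0 0 = {0} := by
  unfold monsterLaw
  norm_num

lemma law0q : monsterLaw (1 / 4 : ℝ) (1 / 32) 0 (1 / 4) = {1 / 4} := by
  unfold monsterLaw
  norm_num

lemma lawqq : monsterLaw (1 / 4 : ℝ) (1 / 32) (1 / 4) (1 / 4) = {1, 0} := by
  unfold monsterLaw
  norm_num

lemma mem_spec0 : (0 : ℝ) ∈ majoranaSpectrum := by simp [majoranaSpectrum]
lemma mem_specq : (1 / 4 : ℝ) ∈ majoranaSpectrum := by simp [majoranaSpectrum]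

lemma eigenSum_singleton (c : ℝ) : eigenSum mul a {c} = eigen mul a c := by
  simp [eigenSum]

theorem exists_decomp (h : IsMajoranaPair mul B μ a) (x : V) :
    ∃ (c : ℝ) (x₀ x₁ x₂ : V), x = c • a + x₀ + x₁ + x₂ ∧ mul a x₀ = 0 ∧
      mul a x₁ = (1 / 4 : ℝ) • x₁ ∧ mul a x₂ = (1 / 32 : ℝ) • x₂ := by
  obtain ⟨-, -, ⟨⟨-, -, htop, -⟩, hprim⟩, -⟩ := h
  have hle : eigenSum mul a majoranaSpectrum ≤
      Submodule.span ℝ {a} ⊔ eigen mul a 0 ⊔ eigen mul a (1 / 4) ⊔ eigen mul a (1 / 32) := by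
    unfold eigenSum
    refine iSup₂_le fun c hc => ?_
    simp only [majoranaSpectrum, Set.mem_insert_iff, Set.mem_singleton_iff] at hc
    rcases hc with rfl | rfl | rfl | rfl
    · rw [hprim]
      exact le_sup_of_le_left (le_sup_of_le_left le_sup_left)
    · exact le_sup_of_le_left (le_sup_of_le_left le_sup_right)
    · exact le_sup_of_le_left le_sup_right
    · exact le_sup_right
  have hx : x ∈ Submodule.span ℝ {a} ⊔ eigen mul a 0 ⊔ eigen mul a (1 / 4) ⊔ eigen mul a (1 / 32) :=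
    hle (by rw [htop]; trivial)
  obtain ⟨y, hy, x₂, hx₂, rfl⟩ := Submodule.mem_sup.mp hx
  obtain ⟨y', hy', x₁, hx₁, rfl⟩ := Submodule.mem_sup.mp hy
  obtain ⟨y'', hy'', x₀, hx₀, rfl⟩ := Submodule.mem_sup.mp hy'
  obtain ⟨c, rfl⟩ := Submodule.mem_span_singleton.mp hy''
  refine ⟨c, x₀, x₁, x₂, rfl, ?_, mem_eigen_iff.mp hx₁, mem_eigen_iff.mp hx₂⟩
  have := mem_eigen_iff.mp hx₀
  simpa using this

lemma B_eigen_a (hV : IsMajoranaAmbient mul B) (hidem : mul a a = a) {x : V} {c : ℝ}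
    (hc : c ≠ 1) (hx : mul a x = c • x) : B x a = 0 := by
  obtain ⟨hcomm, -, -, hassoc, -⟩ := hV
  have h1 : B x a = c * B x a := by
    calc B x a = B x (mul a a) := by rw [hidem]
      _ = B (mul x a) a := hassoc _ _ _
      _ = B (mul a x) a := by rw [hcomm x a]
      _ = c * B x a := by rw [hx]; simp
  have h2 : (1 - c) * B x a = 0 := by linear_combination h1
  have h3 : 1 - c ≠ 0 := sub_ne_zero.mpr (Ne.symm hc)
  exact (mul_eq_zero.mp h2).resolve_left h3

theorem axisFacts_of_pair (hV : IsMajoranaAmbient mul B) (h : IsMajoranaPair mul B μ a)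
    (hn : B a a = 1) : AxisFacts mul B μ a := by
  have hdec := exists_decomp h
  obtain ⟨hμmul, hμB, ⟨⟨-, hidem, htop, hfus⟩, hprim⟩, hmiy1, hmiy2⟩ := h
  have hfixE : ∀ c ∈ ({1, 0, 1 / 4} : Set ℝ), ∀ x ∈ eigen mul a c, μ x = x := by
    intro c hc x hx
    exact hmiy1 x (by
      unfold eigenSum
      exact Submodule.mem_iSup_of_mem c (Submodule.mem_iSup_of_mem hc hx))
  have hfixa : μ a = a := hfixE 1 (by simp) a (by rw [hprim]; exact Submodule.mem_span_singleton_self a)
  have hfix0 : ∀ x, mul a x = 0 → μ x = x := fun x hx =>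
    hfixE 0 (by simp) x (mem_eigen_iff.mpr (by simpa using hx))
  have hfixq : ∀ x, mul a x = (1 / 4 : ℝ) • x → μ x = x := fun x hx =>
    hfixE (1 / 4) (by simp) x (mem_eigen_iff.mpr hx)
  have hneg : ∀ x, mul a x = (1 / 32 : ℝ) • x → μ x = -x := fun x hx =>
    hmiy2 x (mem_eigen_iff.mpr hx)
  have hB0 : ∀ x, mul a x = 0 → B x a = 0 := fun x hx =>
    B_eigen_a (c := 0) hV hidem (by norm_num) (by simpa using hx)
  have hBq : ∀ x, mul a x = (1 / 4 : ℝ) • x → B x a = 0 := fun x hx =>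
    B_eigen_a (c := 1 / 4) hV hidem (by norm_num) hx
  have hBo : ∀ x, mul a x = (1 / 32 : ℝ) • x → B x a = 0 := fun x hx =>
    B_eigen_a (c := 1 / 32) hV hidem (by norm_num) hx
  refine ⟨hidem, hn, hfixa, hμmul, hμB, ?_, ?_, ?_, ?_, ?_⟩
  · intro x
    obtain ⟨c, x₀, x₁, x₂, rfl, h0, h1, h2⟩ := hdec x
    simp only [map_add, map_smul, hfixa, hfix0 x₀ h0, hfixq x₁ h1, hneg x₂ h2, map_sub, map_neg, hidem,
      h0, h1, h2]
    module
  · intro x
    obtain ⟨c, x₀, x₁, x₂, rfl, h0, h1, h2⟩ := hdec x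
    have hB : B (c • a + x₀ + x₁ + x₂) a = c := by
      simp only [map_add, map_smul, LinearMap.add_apply, LinearMap.smul_apply, hB0 x₀ h0, hBq x₁ h1,
        hBo x₂ h2, hn, smul_eq_mul]
      ring
    rw [hB]
    simp only [map_add, map_smul, hfixa, hfix0 x₀ h0, hfixq x₁ h1, hneg x₂ h2, hidem, h0, h1, h2,
      map_zero]
    module
  · intro u v hu hv
    have := hfus 0 mem_spec0 0 mem_spec0 u (mem_eigen_iff.mpr (by simpa using hu)) v
      (mem_eigen_iff.mpr (by simpa using hv))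
    rw [law00, eigenSum_singleton] at this
    simpa using mem_eigen_iff.mp this
  · intro u v hu hv
    have := hfus 0 mem_spec0 (1 / 4) mem_specq u (mem_eigen_iff.mpr (by simpa using hu)) v
      (mem_eigen_iff.mpr hv)
    rw [law0q, eigenSum_singleton] at this
    exact mem_eigen_iff.mp this
  · intro u v hu hv
    have := hfus (1 / 4) mem_specq (1 / 4) mem_specq u (mem_eigen_iff.mpr hu) v (mem_eigen_iff.mpr hv)
    rw [lawqq] at this
    have hle : eigenSum mul a {1, 0} ≤ eigen mul a 1 ⊔ eigen mul a 0 := by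
      unfold eigenSum
      refine iSup₂_le fun c hc => ?_
      simp only [Set.mem_insert_iff, Set.mem_singleton_iff] at hc
      rcases hc with rfl | rfl
      · exact le_sup_left
      · exact le_sup_right
    obtain ⟨y, hy, z, hz, hyz⟩ := Submodule.mem_sup.mp (hle this)
    rw [hprim] at hy
    obtain ⟨c, rfl⟩ := Submodule.mem_span_singleton.mp hy
    have hz0 : mul a z = 0 := by simpa using mem_eigen_iff.mp hz
    have hc : B (mul u v) a = c := by
      rw [← hyz]
      simp only [map_add, map_smul, LinearMap.add_apply, LinearMap.smul_apply, hB0 z hz0, hn,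
        smul_eq_mul]
      ring
    have hc' : B (mul u v) a = (1 / 4 : ℝ) * B u v := by
      obtain ⟨hcomm, -, -, hassoc, -⟩ := hV
      rw [← hassoc, hcomm v a, hv]
      simp
    rw [← hc', hc, ← hyz]
    simp only [map_add, map_smul, hidem, hz0]
    simp

/-- A Majorana involution is an involution. -/
theorem invol_of_pair (h : IsMajoranaPair mul B μ a) (x : V) : μ (μ x) = x := by
  have hdec := exists_decomp h x
  obtain ⟨-, -, ⟨-, hprim⟩, hmiy1, hmiy2⟩ := h
  have hfixE : ∀ c ∈ ({1, 0, 1 / 4} : Set ℝ), ∀ x ∈ eigen mul a c, μ x = x := by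
    intro c hc x hx
    exact hmiy1 x (by
      unfold eigenSum
      exact Submodule.mem_iSup_of_mem c (Submodule.mem_iSup_of_mem hc hx))
  have hfixa : μ a = a := hfixE 1 (by simp) a (by rw [hprim]; exact Submodule.mem_span_singleton_self a)
  have hfix0 : ∀ x, mul a x = 0 → μ x = x := fun x hx =>
    hfixE 0 (by simp) x (mem_eigen_iff.mpr (by simpa using hx))
  have hfixq : ∀ x, mul a x = (1 / 4 : ℝ) • x → μ x = x := fun x hx =>
    hfixE (1 / 4) (by simp) x (mem_eigen_iff.mpr hx)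
  have hneg : ∀ x, mul a x = (1 / 32 : ℝ) • x → μ x = -x := fun x hx =>
    hmiy2 x (mem_eigen_iff.mpr hx)
  obtain ⟨c, x₀, x₁, x₂, rfl, h0, h1, h2⟩ := hdec
  simp only [map_add, map_smul, map_neg, hfixa, hfix0 x₀ h0, hfixq x₁ h1, hneg x₂ h2, neg_neg]

end Extract

section Facts

variable {mul : V →ₗ[ℝ] V →ₗ[ℝ] V} {B : LinearMap.BilinForm ℝ V} {μ μ' : V ≃ₗ[ℝ] V} {a : V}

/-- The axis determines the involution. -/
theorem AxisFacts.unique (h : AxisFacts mul B μ a) (h' : AxisFacts mul B μ' a) : μ = μ' := by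
  ext x
  have h1 := h.sq x
  have h2 := h'.sq x
  have h3 : (7 / 2048 : ℝ) • (x - μ x) = (7 / 2048 : ℝ) • (x - μ' x) := by
    linear_combination (norm := module) h1 - h2
  have h7 := smul_right_injective V (by norm_num : (7 / 2048 : ℝ) ≠ 0) h3
  exact (sub_right_injective h7)

/-- Transport along an automorphism. -/
theorem AxisFacts.conj (h : AxisFacts mul B μ a) (g : V ≃ₗ[ℝ] V)
    (hgm : ∀ u v, g (mul u v) = mul (g u) (g v)) (hgB : ∀ u v, B (g u) (g v) = B u v) :
    AxisFacts mul B (g * μ * g⁻¹) (g a) := by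
  have hg1 : ∀ x, g (g⁻¹ x) = x := fun x => g.apply_symm_apply x
  have hcomp : ∀ x, (g * μ * g⁻¹) x = g (μ (g⁻¹ x)) := fun x => rfl
  refine ⟨?_, ?_, ?_, ?_, ?_, ?_, ?_, ?_, ?_, ?_⟩
  · rw [← hgm, h.idem]
  · rw [hgB, h.norm]
  · rw [hcomp]
    have : g⁻¹ (g a) = a := g.symm_apply_apply a
    rw [this, h.fix]
  · intro u v
    obtain ⟨u, rfl⟩ := g.surjective u
    obtain ⟨v, rfl⟩ := g.surjective v
    simp only [hcomp]
    have e : ∀ x, g⁻¹ (g x) = x := fun x => g.symm_apply_apply x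
    rw [← hgm, e, h.mulμ, hgm, e, e]
  · intro u v
    obtain ⟨u, rfl⟩ := g.surjective u
    obtain ⟨v, rfl⟩ := g.surjective v
    simp only [hcomp]
    have e : ∀ x, g⁻¹ (g x) = x := fun x => g.symm_apply_apply x
    rw [e, e, hgB, h.Bμ, hgB]
  · intro x
    obtain ⟨x, rfl⟩ := g.surjective x
    simp only [hcomp]
    have e : ∀ x, g⁻¹ (g x) = x := fun x => g.symm_apply_apply x
    rw [e, ← map_sub, ← hgm, h.odd]
    simp
  · intro x
    obtain ⟨x, rfl⟩ := g.surjective x
    simp only [hcomp]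
    have e : ∀ x, g⁻¹ (g x) = x := fun x => g.symm_apply_apply x
    rw [e, ← hgm, ← hgm, h.sq, hgB]
    simp [hgm]
  · intro u v hu hv
    obtain ⟨u, rfl⟩ := g.surjective u
    obtain ⟨v, rfl⟩ := g.surjective v
    rw [← hgm] at hu hv
    have hu' : mul a u = 0 := g.injective (by simpa using hu)
    have hv' : mul a v = 0 := g.injective (by simpa using hv)
    rw [← hgm, ← hgm, h.f00 u v hu' hv', map_zero]
  · intro u v hu hv
    obtain ⟨u, rfl⟩ := g.surjective u
    obtain ⟨v, rfl⟩ := g.surjective v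
    rw [← hgm] at hu hv
    have hu' : mul a u = 0 := g.injective (by simpa using hu)
    have hv' : mul a v = (1 / 4 : ℝ) • v := g.injective (by simpa using hv)
    rw [← hgm, ← hgm, h.f0q u v hu' hv', map_smul]
  · intro u v hu hv
    obtain ⟨u, rfl⟩ := g.surjective u
    obtain ⟨v, rfl⟩ := g.surjective v
    rw [← hgm] at hu hv
    have hu' : mul a u = (1 / 4 : ℝ) • u := g.injective (by simpa using hu)
    have hv' : mul a v = (1 / 4 : ℝ) • v := g.injective (by simpa using hv)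
    rw [← hgm, ← hgm, h.fqq u v hu' hv', map_smul, hgB]

end Facts

end Cfsg.Agent.Lib.Linalg.Majorana
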