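import Mathlib
import Cfsg.Agent.Lib.Linalg.MajoranaAxis

/-!
# Majorana axes: products around one axis

Abstract computations around one axis `a` with neighbours `b, b'`, `c, c'`, `d, d'` on both sides, and the
symmetric elements `s, Q, O`: the fusion rules express `a O`, `s s` and the product `a d` through the
listed vectors.
-/

set_option autoImplicit false

namespace Cfsg.Agent.Lib.Linalg.Majorana

open Cfsg.Axial

variable {V : Type*} [AddCommGroup V] [Module ℝ V]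
  {mul : V →ₗ[ℝ] V →ₗ[ℝ] V} {B : LinearMap.BilinForm ℝ V} {μ : V ≃ₗ[ℝ] V} {a : V}

section Pair

lemma mul_mu (h : AxisFacts mul B μ a) (b : V) :
    mul a (μ b) = mul a b - (1 / 32 : ℝ) • (b - μ b) := by
  have := h.odd b
  rw [map_sub] at this
  linear_combination (norm := module) -this

lemma mul_g (h : AxisFacts mul B μ a) {b g : V}
    (hg : mul a b = (1 / 32 : ℝ) • (a + b) + g) :
    mul a g = (3 / 4 * B b a - 25 / 1024) • a + (7 / 2048 : ℝ) • (b + μ b) + (7 / 32 : ℝ) • g := by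
  have h1 := h.sq b
  rw [hg] at h1
  simp only [map_add, map_smul, h.idem, hg] at h1
  linear_combination (norm := module) h1

end Pair

section Center

variable {b b' c c' d d' s Q O x : V} {l m : ℝ}

/-- The formula for the product of `a` with the symmetric element of the other class. -/
theorem center_PF (hF : AxisFacts mul B μ a) (hcomm : ∀ u v, mul u v = mul v u)
    (hab : mul a b = (1 / 32 : ℝ) • (a + b) + s) (hab' : mul a b' = (1 / 32 : ℝ) • (a + b') + s)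
    (hac : mul a c = (1 / 32 : ℝ) • (a + c) + Q) (hac' : mul a c' = (1 / 32 : ℝ) • (a + c') + Q)
    (has : mul a s = (3 / 4 * l - 25 / 1024) • a + (7 / 2048 : ℝ) • (b + b') + (7 / 32 : ℝ) • s)
    (haQ : mul a Q = (3 / 4 * m - 25 / 1024) • a + (7 / 2048 : ℝ) • (c + c') + (7 / 32 : ℝ) • Q)
    (hbb' : mul b b' = (1 / 32 : ℝ) • (b + b') + O) (hbb : mul b b = b) (hb'b' : mul b' b' = b')
    (hbs : mul b s = (3 / 4 * l - 25 / 1024) • b + (7 / 2048 : ℝ) • (c + a) + (7 / 32 : ℝ) • s)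
    (hb's : mul b' s = (3 / 4 * l - 25 / 1024) • b' + (7 / 2048 : ℝ) • (a + c') + (7 / 32 : ℝ) • s)
    (hBβ : B ((1 / 16 : ℝ) • (b + b') + (1 / 8 - 4 * l) • a + (4 : ℝ) • s)
      ((1 / 16 : ℝ) • (b + b') + (1 / 8 - 4 * l) • a + (4 : ℝ) • s) = 4 * l * (1 - l) - (1 - m) / 16) :
    mul a O = (l / 6 - 19 / 3072) • (b + b') + (7 / 6144 : ℝ) • (c + c') +
      (-(32 / 3) * l ^ 2 + 5 / 3 * l - m / 24 - 127 / 3072) • a + (7 / 96 : ℝ) • Q +
      (32 / 3 * l - 19 / 48) • s := by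
  have hα0 : mul a ((7 / 16 : ℝ) • (b + b') + (3 * l - 1 / 8) • a - (4 : ℝ) • s) = 0 := by
    simp only [map_add, map_sub, map_smul, hF.idem, hab, hab', has]
    module
  have hβq : mul a ((1 / 16 : ℝ) • (b + b') + (1 / 8 - 4 * l) • a + (4 : ℝ) • s) =
      (1 / 4 : ℝ) • ((1 / 16 : ℝ) • (b + b') + (1 / 8 - 4 * l) • a + (4 : ℝ) • s) := by
    simp only [map_add, map_smul, hF.idem, hab, hab', has]
    module
  have h1 := hF.f00 _ _ hα0 hα0
  have h2 := hF.fqq _ _ hβq hβq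
  rw [hBβ] at h2
  simp only [map_add, map_sub, map_smul, LinearMap.add_apply, LinearMap.sub_apply,
    LinearMap.smul_apply, hcomm b a, hcomm b' a, hcomm s a, hcomm s b, hcomm s b', hcomm b' b,
    hF.idem, hab, hab', hac, hac', has, haQ, hbb', hbb, hb'b', hbs, hb's] at h1 h2
  linear_combination (norm := module) (8 / 3 : ℝ) • h1 - (8 / 3 : ℝ) • h2

/-- The formula for the square of `s`. -/
theorem center_SF (hF : AxisFacts mul B μ a) (hcomm : ∀ u v, mul u v = mul v u)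
    (hab : mul a b = (1 / 32 : ℝ) • (a + b) + s) (hab' : mul a b' = (1 / 32 : ℝ) • (a + b') + s)
    (hac : mul a c = (1 / 32 : ℝ) • (a + c) + Q) (hac' : mul a c' = (1 / 32 : ℝ) • (a + c') + Q)
    (has : mul a s = (3 / 4 * l - 25 / 1024) • a + (7 / 2048 : ℝ) • (b + b') + (7 / 32 : ℝ) • s)
    (haQ : mul a Q = (3 / 4 * m - 25 / 1024) • a + (7 / 2048 : ℝ) • (c + c') + (7 / 32 : ℝ) • Q)
    (hbb' : mul b b' = (1 / 32 : ℝ) • (b + b') + O) (hbb : mul b b = b) (hb'b' : mul b' b' = b')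
    (hbs : mul b s = (3 / 4 * l - 25 / 1024) • b + (7 / 2048 : ℝ) • (c + a) + (7 / 32 : ℝ) • s)
    (hb's : mul b' s = (3 / 4 * l - 25 / 1024) • b' + (7 / 2048 : ℝ) • (a + c') + (7 / 32 : ℝ) • s)
    (hBβ : B ((1 / 16 : ℝ) • (b + b') + (1 / 8 - 4 * l) • a + (4 : ℝ) • s)
      ((1 / 16 : ℝ) • (b + b') + (1 / 8 - 4 * l) • a + (4 : ℝ) • s) = 4 * l * (1 - l) - (1 - m) / 16)
    (hPF : mul a O = (l / 6 - 19 / 3072) • (b + b') + (7 / 6144 : ℝ) • (c + c') +
      (-(32 / 3) * l ^ 2 + 5 / 3 * l - m / 24 - 127 / 3072) • a + (7 / 96 : ℝ) • Q +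
      (32 / 3 * l - 19 / 48) • s) :
    mul s s = (49 / 768 * l - 245 / 196608) • (b + b') + (49 / 196608 : ℝ) • (c + c') +
      (7 / 6 * l ^ 2 - 7 / 384 * l + 7 / 1536 * m - 7 / 98304) • a + (7 / 2048 : ℝ) • O -
      (7 / 1536 : ℝ) • Q - (5 / 12 * l + 13 / 1536) • s := by
  have hα0 : mul a ((7 / 16 : ℝ) • (b + b') + (3 * l - 1 / 8) • a - (4 : ℝ) • s) = 0 := by
    simp only [map_add, map_sub, map_smul, hF.idem, hab, hab', has]
    module
  have hβq : mul a ((1 / 16 : ℝ) • (b + b') + (1 / 8 - 4 * l) • a + (4 : ℝ) • s) =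
      (1 / 4 : ℝ) • ((1 / 16 : ℝ) • (b + b') + (1 / 8 - 4 * l) • a + (4 : ℝ) • s) := by
    simp only [map_add, map_smul, hF.idem, hab, hab', has]
    module
  have h1 := hF.f00 _ _ hα0 hα0
  have h2 := hF.fqq _ _ hβq hβq
  have h3 := hF.f0q _ _ hα0 hβq
  rw [hBβ] at h2
  simp only [map_add, map_sub, map_smul, LinearMap.add_apply, LinearMap.sub_apply,
    LinearMap.smul_apply, hcomm b a, hcomm b' a, hcomm s a, hcomm s b, hcomm s b', hcomm b' b,
    hF.idem, hab, hab', hac, hac', has, haQ, hbb', hbb, hb'b', hbs, hb's, hPF] at h1 h2 h3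
  linear_combination (norm := module) (1 / 8 : ℝ) • h1 + (1 / 4 : ℝ) • h3 + (1 / 8 : ℝ) • h2

/-- The formula for the product of `a` with its neighbour at distance three. -/
theorem center_XF (hF : AxisFacts mul B μ a) (hcomm : ∀ u v, mul u v = mul v u)
    (hab : mul a b = (1 / 32 : ℝ) • (a + b) + s) (hab' : mul a b' = (1 / 32 : ℝ) • (a + b') + s)
    (hac : mul a c = (1 / 32 : ℝ) • (a + c) + Q) (hac' : mul a c' = (1 / 32 : ℝ) • (a + c') + Q)
    (had : mul a d = (1 / 32 : ℝ) • (a + d) + x) (had' : mul a d' = (1 / 32 : ℝ) • (a + d') + x)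
    (has : mul a s = (3 / 4 * l - 25 / 1024) • a + (7 / 2048 : ℝ) • (b + b') + (7 / 32 : ℝ) • s)
    (haQ : mul a Q = (3 / 4 * m - 25 / 1024) • a + (7 / 2048 : ℝ) • (c + c') + (7 / 32 : ℝ) • Q)
    (hcs : mul c s = (3 / 4 * l - 25 / 1024) • c + (7 / 2048 : ℝ) • (d + b) + (7 / 32 : ℝ) • s)
    (hc's : mul c' s = (3 / 4 * l - 25 / 1024) • c' + (7 / 2048 : ℝ) • (b' + d') + (7 / 32 : ℝ) • s)
    (hPF : mul a O = (l / 6 - 19 / 3072) • (b + b') + (7 / 6144 : ℝ) • (c + c') +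
      (-(32 / 3) * l ^ 2 + 5 / 3 * l - m / 24 - 127 / 3072) • a + (7 / 96 : ℝ) • Q +
      (32 / 3 * l - 19 / 48) • s)
    (hbQ : mul b Q = (l / 6 - 19 / 3072) • (c + a) + (7 / 6144 : ℝ) • (d + b') +
      (-(32 / 3) * l ^ 2 + 5 / 3 * l - m / 24 - 127 / 3072) • b + (7 / 96 : ℝ) • O +
      (32 / 3 * l - 19 / 48) • s)
    (hb'Q : mul b' Q = (l / 6 - 19 / 3072) • (a + c') + (7 / 6144 : ℝ) • (b + d') +
      (-(32 / 3) * l ^ 2 + 5 / 3 * l - m / 24 - 127 / 3072) • b' + (7 / 96 : ℝ) • O +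
      (32 / 3 * l - 19 / 48) • s) :
    x = (512 * l ^ 2 - 176 / 3 * l + 2 * m + 187 / 192) • (b + b') +
      (28 * l - 161 / 192) • (c + c') + (7 / 64 : ℝ) • (d + d') +
      (63488 / 21 * l ^ 2 - 3848 / 21 * l - 256 / 21 * m + 1913 / 672) • a - (8 : ℝ) • O +
      (-256 * l + 31 / 3) • Q +
      (-(32768 / 7) * l ^ 2 + 19456 / 21 * l - 128 / 7 * m - 491 / 21) • s := by
  have hα0 : mul a ((7 / 16 : ℝ) • (b + b') + (3 * l - 1 / 8) • a - (4 : ℝ) • s) = 0 := by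
    simp only [map_add, map_sub, map_smul, hF.idem, hab, hab', has]
    module
  have hβq : mul a ((1 / 16 : ℝ) • (b + b') + (1 / 8 - 4 * l) • a + (4 : ℝ) • s) =
      (1 / 4 : ℝ) • ((1 / 16 : ℝ) • (b + b') + (1 / 8 - 4 * l) • a + (4 : ℝ) • s) := by
    simp only [map_add, map_smul, hF.idem, hab, hab', has]
    module
  have hα0' : mul a ((7 / 16 : ℝ) • (c + c') + (3 * m - 1 / 8) • a - (4 : ℝ) • Q) = 0 := by
    simp only [map_add, map_sub, map_smul, hF.idem, hac, hac', haQ]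
    module
  have hβq' : mul a ((1 / 16 : ℝ) • (c + c') + (1 / 8 - 4 * m) • a + (4 : ℝ) • Q) =
      (1 / 4 : ℝ) • ((1 / 16 : ℝ) • (c + c') + (1 / 8 - 4 * m) • a + (4 : ℝ) • Q) := by
    simp only [map_add, map_smul, hF.idem, hac, hac', haQ]
    module
  have h3 := hF.f0q _ _ hα0 hβq'
  have h4 := hF.f0q _ _ hα0' hβq
  simp only [map_add, map_sub, map_smul, LinearMap.add_apply, LinearMap.sub_apply,
    LinearMap.smul_apply, hcomm c b, hcomm c b', hcomm c' b, hcomm c' b', hcomm Q a, hcomm Q b,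
    hcomm Q b', hcomm Q s, hcomm c a, hcomm c' a, hcomm s c, hcomm s c', hcomm b a, hcomm b' a,
    hcomm s a, hF.idem, hab, hab', hac, hac', had, had', has, haQ, hcs, hc's, hPF, hbQ, hb'Q] at h3 h4
  linear_combination (norm := module) (-(768 / 7) : ℝ) • h3 + (768 / 7 : ℝ) • h4

end Center

end Cfsg.Agent.Lib.Linalg.Majorana
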