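import Mathlib

/-!
# Majorana axes: the polynomial system

The inner products at distances one to six satisfy explicit polynomial relations; the two relations `h1`, `h2`
in the two first inner products have exactly nine common solutions.
-/

set_option autoImplicit false

namespace Cfsg.Agent.Lib.Linalg.Majorana

theorem solve_pair {l m : ℝ} (h1 : (-6291456)*l^4 + (-122880)*l^2*m + 6979584*l^3 + (-26688)*l*m + (-552960)*l^2 + (-384)*m^2 + 14400*l + 501*m + (-117) = 0)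
    (h2 : 1610612736*l^5 + 78643200*l^3*m + (-1815085056)*l^4 + 282624*l*m^2 + (-4780032)*l^2*m + 132415488*l^3 + 497568*l*m + (-2580480)*l^2 + 8352*m^2 + (-6048)*l + (-8703)*m + 351 = 0) :
    (l = 1 ∧ m = 1) ∨ (l = 1 / 8 ∧ m = 1) ∨ (l = 0 ∧ m = 1) ∨ (l = 13 / 256 ∧ m = 13 / 256) ∨
      (l = 1 / 64 ∧ m = 1 / 64) ∨ (l = 1 / 64 ∧ m = 1 / 8) ∨ (l = 1 / 32 ∧ m = 0) ∨
      (l = 3 / 128 ∧ m = 3 / 128) ∨ (l = 5 / 256 ∧ m = 13 / 256) := by
  have hRes : l * (l - 1) * (8 * l - 1) * (256 * l - 13) * (64 * l - 1) * (64 * l - 1) * (32 * l - 1) *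
      (128 * l - 3) * (256 * l - 5) = 0 := by
    linear_combination ((-134217728/2205)*l^6 + (-6029312/2205)*l^4*m + (-5333843968/2205)*l^5 + (-1558528/245)*l^3*m + (30988288/245)*l^4 + (-263152/2205)*l^2*m + (-22450928/2205)*l^3 + (14503/5880)*l*m + (979625/3528)*l^2 + (-161867/75264)*l + (377/25088)*m + (-507/802816)) * h1 +
      ((-524288/2205)*l^5 + (-8192/2205)*l^3*m + (-1257472/315)*l^4 + (-128/15)*l^2*m + (-127584/245)*l^3 + (397/4410)*l*m + (33293/1764)*l^2 + (-7849/56448)*l + (13/18816)*m + (-169/802816)) * h2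
  simp only [mul_eq_zero] at hRes
  rcases hRes with ((((((((hl | hl) | hl) | hl) | hl) | hl) | hl) | hl) | hl)
  · have hl' : l = 0 := by linarith
    subst hl'
    have hm : m = 1 := by linear_combination (29/2925:ℝ) * h1 + (4/8775:ℝ) * h2
    exact Or.inr (Or.inr (Or.inl ⟨rfl, hm⟩))
  · have hl' : l = 1 := by linarith
    subst hl'
    have hm : m = 1 := by linear_combination (-433/22059135:ℝ) * h1 + (-4/154413945:ℝ) * h2
    exact Or.inl ⟨rfl, hm⟩
  · have hl' : l = 1/8 := by linarith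
    subst hl'
    have hm : m = 1 := by linear_combination (-1/3591:ℝ) * h1 + (-4/1633905:ℝ) * h2
    exact Or.inr (Or.inl ⟨rfl, hm⟩)
  · have hl' : l = 13/256 := by linarith
    subst hl'
    have hm : m = 13/256 := by linear_combination (-3784/3501225:ℝ) * h1 + (-64/3501225:ℝ) * h2
    exact Or.inr (Or.inr (Or.inr (Or.inl ⟨rfl, hm⟩)))
  · have hl' : l = 1/64 := by linarith
    subst hl'
    have hp : (m - 1 / 64) * (m - 1 / 8) = 0 := by linear_combination (-1 / 384 : ℝ) * h1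
    rcases mul_eq_zero.mp hp with hm | hm
    · have hm : m = 1 / 64 := by linarith
      exact Or.inr (Or.inr (Or.inr (Or.inr (Or.inl ⟨rfl, hm⟩))))
    · have hm : m = 1 / 8 := by linarith
      exact Or.inr (Or.inr (Or.inr (Or.inr (Or.inr (Or.inl ⟨rfl, hm⟩)))))
  · have hl' : l = 1/64 := by linarith
    subst hl'
    have hp : (m - 1 / 64) * (m - 1 / 8) = 0 := by linear_combination (-1 / 384 : ℝ) * h1
    rcases mul_eq_zero.mp hp with hm | hm
    · have hm : m = 1 / 64 := by linarith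
      exact Or.inr (Or.inr (Or.inr (Or.inr (Or.inl ⟨rfl, hm⟩))))
    · have hm : m = 1 / 8 := by linarith
      exact Or.inr (Or.inr (Or.inr (Or.inr (Or.inr (Or.inl ⟨rfl, hm⟩)))))
  · have hl' : l = 1/32 := by linarith
    subst hl'
    have hm : m = 0 := by linear_combination (-179/62775:ℝ) * h1 + (-4/62775:ℝ) * h2
    exact Or.inr (Or.inr (Or.inr (Or.inr (Or.inr (Or.inr (Or.inl ⟨rfl, hm⟩))))))
  · have hl' : l = 3/128 := by linarith
    subst hl'
    have hm : m = 3/128 := by linear_combination (-2/315:ℝ) * h1 + (-2/12285:ℝ) * h2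
    exact Or.inr (Or.inr (Or.inr (Or.inr (Or.inr (Or.inr (Or.inr (Or.inl ⟨rfl, hm⟩)))))))
  · have hl' : l = 5/256 := by linarith
    subst hl'
    have hm : m = 13/256 := by linear_combination (-2312/169425:ℝ) * h1 + (-64/169425:ℝ) * h2
    exact Or.inr (Or.inr (Or.inr (Or.inr (Or.inr (Or.inr (Or.inr (Or.inr (⟨rfl, hm⟩))))))))

/-- The numerical core: one of the inner products at distance at most six is one. -/
theorem numeric_core {l m t3 t40 t41 t5 t6 : ℝ}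
    (hT3 : t3 = 30 * (l - m) - (256 * l - 5) * (1 + m - 2 * l) - l + 2 * m -
      ((32768 * l ^ 2 - 512 * l + 128 * m - 9) / 7 + 1) * (l - 1))
    (hT40 : t40 = m + (256 * l - 5) * (l - t3) + (32768 * l ^ 2 - 512 * l + 128 * m - 9) / 7 * (1 - m))
    (hT41 : t41 = m + (256 * l - 5) * (l - t3) + (32768 * l ^ 2 - 512 * l + 128 * m - 9) / 7 * (1 - m))
    (hT5 : t5 = l + (256 * l - 5) * (1 - t41) + (32768 * l ^ 2 - 512 * l + 128 * m - 9) / 7 * (l - t3))
    (hT6 : t6 = 1 + (256 * l - 5) * (l - t5) + (32768 * l ^ 2 - 512 * l + 128 * m - 9) / 7 * (m - t41))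
    (hH1 : (t3 + 30 * l - 1) / 32 = (512 * l ^ 2 - 176 / 3 * l + 2 * m + 187 / 192) * (l + t3) +
      (28 * l - 161 / 192) * (1 + t40) + 7 / 64 * (l + t5) +
      (63488 / 21 * l ^ 2 - 3848 / 21 * l - 256 / 21 * m + 1913 / 672) * m -
      8 * ((30 * l + m - 1) / 32) + (-256 * l + 31 / 3) * ((31 * m - 1) / 32) +
      (-(32768 / 7) * l ^ 2 + 19456 / 21 * l - 128 / 7 * m - 491 / 21) * ((31 * l - 1) / 32))
    (hH2 : (31 * t3 - 1) / 32 = (512 * l ^ 2 - 176 / 3 * l + 2 * m + 187 / 192) * (m + t41) +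
      (28 * l - 161 / 192) * (l + t5) + 7 / 64 * (1 + t6) +
      (63488 / 21 * l ^ 2 - 3848 / 21 * l - 256 / 21 * m + 1913 / 672) * t3 -
      8 * ((31 * m - 1) / 32) + (-256 * l + 31 / 3) * ((30 * l + m - 1) / 32) +
      (-(32768 / 7) * l ^ 2 + 19456 / 21 * l - 128 / 7 * m - 491 / 21) * ((31 * l - 1) / 32)) :
    l = 1 ∨ m = 1 ∨ t3 = 1 ∨ t40 = 1 ∨ t5 = 1 ∨ t6 = 1 := by
  subst hT6 hT5 hT41 hT40 hT3
  have h1 : (-6291456)*l^4 + (-122880)*l^2*m + 6979584*l^3 + (-26688)*l*m + (-552960)*l^2 + (-384)*m^2 + 14400*l + 501*m + (-117) = 0 := by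
    linear_combination (-56 : ℝ) * hH1
  have h2 : 1610612736*l^5 + 78643200*l^3*m + (-1815085056)*l^4 + 282624*l*m^2 + (-4780032)*l^2*m + 132415488*l^3 + 497568*l*m + (-2580480)*l^2 + 8352*m^2 + (-6048)*l + (-8703)*m + 351 = 0 := by
    linear_combination (-196 : ℝ) * hH2
  rcases solve_pair h1 h2 with ⟨rfl, rfl⟩ | ⟨rfl, rfl⟩ | ⟨rfl, rfl⟩ | ⟨rfl, rfl⟩ | ⟨rfl, rfl⟩ |
    ⟨rfl, rfl⟩ | ⟨rfl, rfl⟩ | ⟨rfl, rfl⟩ | ⟨rfl, rfl⟩ <;> norm_num

end Cfsg.Agent.Lib.Linalg.Majorana
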