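import Mathlib
import Cfsg.Agent.Lib.Linalg.MajoranaCenter
import Cfsg.Agent.Lib.Linalg.MajoranaNumeric

/-!
# Majorana axes: the dihedral family

A family of axes `a i` (`i : ℤ`) with involutions `τ i`, `τ i (a j) = a (2 i - j)`.
-/

set_option autoImplicit false

namespace Cfsg.Agent.Lib.Linalg.Majorana

variable {V : Type*} [AddCommGroup V] [Module ℝ V]

/-- The family of axes. -/
structure Dih (mul : V →ₗ[ℝ] V →ₗ[ℝ] V) (B : LinearMap.BilinForm ℝ V) (a : ℤ → V)
    (τ : ℤ → V ≃ₗ[ℝ] V) : Prop where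
  comm : ∀ u v, mul u v = mul v u
  symm : ∀ u v, B u v = B v u
  assoc : ∀ u v w, B u (mul v w) = B (mul u v) w
  ax : ∀ i, AxisFacts mul B (τ i) (a i)
  refl : ∀ i j, τ i (a j) = a (2 * i - j)

/-- The symmetric part of a product of two axes. -/
noncomputable def gg (mul : V →ₗ[ℝ] V →ₗ[ℝ] V) (a : ℤ → V) (i j : ℤ) : V :=
  mul (a i) (a j) - (1 / 32 : ℝ) • (a i + a j)

namespace Dih

variable {mul : V →ₗ[ℝ] V →ₗ[ℝ] V} {B : LinearMap.BilinForm ℝ V} {a : ℤ → V} {τ : ℤ → V ≃ₗ[ℝ] V}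

lemma mul_eq_gg (i j : ℤ) : mul (a i) (a j) = (1 / 32 : ℝ) • (a i + a j) + gg mul a i j := by
  unfold gg
  abel

lemma gg_comm (D : Dih mul B a τ) (i j : ℤ) : gg mul a i j = gg mul a j i := by
  unfold gg
  rw [D.comm, add_comm]

lemma gg_reflect (D : Dih mul B a τ) (i j : ℤ) : gg mul a i (2 * i - j) = gg mul a i j := by
  have h := mul_mu (D.ax i) (a j)
  rw [D.refl] at h
  unfold gg
  rw [h]
  module

lemma gg_shift (D : Dih mul B a τ) (i d : ℤ) : gg mul a (i + d) (i + d + d) = gg mul a i (i + d) := by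
  have h1 := D.gg_reflect (i + d) i
  rw [show 2 * (i + d) - i = i + d + d by ring] at h1
  rw [h1, D.gg_comm]

lemma gg_one (D : Dih mul B a τ) (i : ℤ) : gg mul a i (i + 1) = gg mul a 0 1 := by
  induction i using Int.induction_on with
  | zero => rfl
  | succ i ih => rw [D.gg_shift (i : ℤ) 1, ih]
  | pred i ih =>
    rw [← ih]
    have := D.gg_shift (-(i : ℤ) - 1) 1
    rw [show -(i : ℤ) - 1 + 1 = -(i : ℤ) by ring] at this ⊢
    exact this.symm

/-- The symmetric element at distance two. -/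
noncomputable def Qf (mul : V →ₗ[ℝ] V →ₗ[ℝ] V) (a : ℤ → V) (i : ℤ) : V := gg mul a i (i + 2)

lemma Qf_two (D : Dih mul B a τ) (i : ℤ) : Qf mul a (i + 2) = Qf mul a i := D.gg_shift i 2

lemma gg_minus_one (D : Dih mul B a τ) (i : ℤ) : gg mul a i (i - 1) = gg mul a 0 1 := by
  rw [D.gg_comm, ← D.gg_one (i - 1)]
  rw [show i - 1 + 1 = i by ring]

lemma gg_minus_two (D : Dih mul B a τ) (i : ℤ) : gg mul a i (i - 2) = Qf mul a i := by
  have := D.gg_reflect i (i + 2)
  rwa [show 2 * i - (i + 2) = i - 2 by ring] at this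

lemma gg_minus_three (D : Dih mul B a τ) (i : ℤ) : gg mul a i (i - 3) = gg mul a i (i + 3) := by
  have := D.gg_reflect i (i + 3)
  rwa [show 2 * i - (i + 3) = i - 3 by ring] at this

/-! ### Inner products -/

lemma T_refl (D : Dih mul B a τ) (k i j : ℤ) : B (a (2 * k - i)) (a (2 * k - j)) = B (a i) (a j) := by
  rw [← D.refl, ← D.refl, (D.ax k).Bμ]

lemma T_shift_even (D : Dih mul B a τ) (n i j : ℤ) : B (a (i + 2 * n)) (a (j + 2 * n)) = B (a i) (a j) := by
  have h1 := D.T_refl n (-i) (-j)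
  have h2 := D.T_refl 0 i j
  rw [show 2 * n - -i = i + 2 * n by ring, show 2 * n - -j = j + 2 * n by ring] at h1
  rw [h1, ← h2]
  congr 2 <;> congr 1 <;> ring

lemma T_shift_odd (D : Dih mul B a τ) (i j : ℤ) (h : (j - i) % 2 = 1) :
    B (a (i + 1)) (a (j + 1)) = B (a i) (a j) := by
  obtain ⟨k, hk⟩ : ∃ k, i + j + 1 = 2 * k := ⟨(i + j + 1) / 2, by omega⟩
  have h1 := D.T_refl k i j
  rw [show 2 * k - i = j + 1 by omega, show 2 * k - j = i + 1 by omega] at h1
  rw [D.symm, h1]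

lemma T_congr (D : Dih mul B a τ) {i j i' j' : ℤ} (h₁ : j' - i' = j - i)
    (h₂ : (i' - i) % 2 = 0 ∨ (j - i) % 2 = 1) : B (a i') (a j') = B (a i) (a j) := by
  by_cases h : (i' - i) % 2 = 0
  · obtain ⟨n, hn⟩ : ∃ n, i' = i + 2 * n := ⟨(i' - i) / 2, by omega⟩
    obtain rfl : j' = j + 2 * n := by omega
    subst hn
    exact D.T_shift_even n i j
  · have h3 : (j - i) % 2 = 1 := h₂.resolve_left h
    obtain ⟨n, hn⟩ : ∃ n, i' = i + 2 * n + 1 := ⟨(i' - i) / 2, by omega⟩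
    obtain rfl : j' = j + 2 * n + 1 := by omega
    subst hn
    rw [D.T_shift_odd _ _ (by omega), D.T_shift_even]

lemma T_mid (D : Dih mul B a τ) (i : ℤ) : B (a (i - 1)) (a (i + 1)) = B (a i) (a (i + 2)) := by
  have hA := D.ax i
  have hA' := D.ax (i + 1)
  have h1 := hA.sq (a (i + 1))
  have h2 := hA'.sq (a i)
  rw [D.refl, show 2 * i - (i + 1) = i - 1 by ring] at h1
  rw [D.refl, show 2 * (i + 1) - i = i + 2 by ring] at h2
  have e1 : B (mul (a i) (a (i + 1))) (mul (a i) (a (i + 1))) =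
      B (mul (a i) (mul (a i) (a (i + 1)))) (a (i + 1)) := by
    rw [D.assoc, D.comm (mul (a i) (a (i + 1))) (a i)]
  have e2 : B (mul (a i) (a (i + 1))) (mul (a i) (a (i + 1))) =
      B (mul (a (i + 1)) (mul (a (i + 1)) (a i))) (a i) := by
    rw [D.comm (a (i + 1)) (a i)]
    conv_lhs => rw [D.comm (a i) (a (i + 1))]
    conv_rhs => rw [D.comm (a i) (a (i + 1))]
    rw [D.assoc, D.comm (mul (a (i + 1)) (a i)) (a (i + 1))]
  have e3 : B (mul (a i) (a (i + 1))) (a (i + 1)) = B (a i) (a (i + 1)) := by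
    rw [← D.assoc, hA'.idem]
  have e4 : B (mul (a (i + 1)) (a i)) (a i) = B (a (i + 1)) (a i) := by
    rw [← D.assoc, hA.idem]
  rw [e1, h1] at e2
  rw [h2] at e2
  simp only [map_add, map_sub, map_smul, LinearMap.add_apply, LinearMap.sub_apply,
    LinearMap.smul_apply, smul_eq_mul, e3, e4, hA.norm, hA'.norm] at e2
  have e5 : B (a (i + 1)) (a i) = B (a i) (a (i + 1)) := D.symm _ _
  have e6 : B (a (i + 2)) (a i) = B (a i) (a (i + 2)) := D.symm _ _
  rw [e5, e6] at e2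
  linear_combination (2048 / 7 : ℝ) * e2

/-- The inner product at distance one. -/
noncomputable def ll (B : LinearMap.BilinForm ℝ V) (a : ℤ → V) : ℝ := B (a 0) (a 1)

/-- The inner product at distance two. -/
noncomputable def mm (B : LinearMap.BilinForm ℝ V) (a : ℤ → V) : ℝ := B (a 0) (a 2)

lemma T_one (D : Dih mul B a τ) {i j : ℤ} (h : j = i + 1) : B (a i) (a j) = ll B a := by
  subst h
  exact D.T_congr (by ring) (Or.inr (by norm_num))

lemma T_one' (D : Dih mul B a τ) {i j : ℤ} (h : i = j + 1) : B (a i) (a j) = ll B a := by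
  rw [D.symm]
  exact D.T_one h

lemma T_two (D : Dih mul B a τ) {i j : ℤ} (h : j = i + 2) : B (a i) (a j) = mm B a := by
  subst h
  by_cases hi : (i - 0) % 2 = 0
  · exact D.T_congr (by ring) (Or.inl hi)
  · have h1 : B (a i) (a (i + 2)) = B (a 1) (a 3) :=
      D.T_congr (by ring) (Or.inl (by omega))
    have h2 := D.T_mid 1
    norm_num at h2
    rw [h1, ← h2]
    rfl

lemma T_two' (D : Dih mul B a τ) {i j : ℤ} (h : i = j + 2) : B (a i) (a j) = mm B a := by
  rw [D.symm]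
  exact D.T_two h

lemma norm_eq (D : Dih mul B a τ) (i : ℤ) : B (a i) (a i) = 1 := (D.ax i).norm

lemma Qf_add (D : Dih mul B a τ) (n t : ℤ) : Qf mul a (n + 2 * t) = Qf mul a n := by
  induction t using Int.induction_on with
  | zero => simp
  | succ t ih =>
    rw [show n + 2 * ((t : ℤ) + 1) = n + 2 * (t : ℤ) + 2 by ring, D.Qf_two, ih]
  | pred t ih =>
    rw [← ih, ← D.Qf_two (n + 2 * (-(t : ℤ) - 1))]
    congr 1
    ring

lemma Qf_parity (D : Dih mul B a τ) {n n' : ℤ} (h : (n - n') % 2 = 0) : Qf mul a n = Qf mul a n' := by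
  obtain ⟨t, rfl⟩ : ∃ t, n = n' + 2 * t := ⟨(n - n') / 2, by omega⟩
  exact D.Qf_add n' t

/-- The element `s`. -/
noncomputable def ss (mul : V →ₗ[ℝ] V →ₗ[ℝ] V) (a : ℤ → V) : V := gg mul a 0 1

lemma c_s (D : Dih mul B a τ) {i j : ℤ} (hj : j = i + 1) :
    mul (a i) (a j) = (1 / 32 : ℝ) • (a i + a j) + ss mul a := by
  subst hj
  rw [mul_eq_gg, D.gg_one]
  rfl

lemma c_s' (D : Dih mul B a τ) {i j : ℤ} (hj : j = i - 1) :
    mul (a i) (a j) = (1 / 32 : ℝ) • (a i + a j) + ss mul a := by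
  subst hj
  rw [mul_eq_gg, D.gg_minus_one]
  rfl

lemma a_s (D : Dih mul B a τ) {i j k : ℤ} (hj : j = i + 1) (hk : k = i - 1) :
    mul (a i) (ss mul a) = (3 / 4 * ll B a - 25 / 1024) • a i + (7 / 2048 : ℝ) • (a j + a k) +
      (7 / 32 : ℝ) • ss mul a := by
  have h := mul_g (D.ax i) (D.c_s hj)
  rw [D.refl, show 2 * i - j = k by omega, D.T_one' (show j = i + 1 from hj)] at h
  exact h

lemma c_Q (D : Dih mul B a τ) {i j q : ℤ} (hj : j = i + 2) (hq : (q - i) % 2 = 0) :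
    mul (a i) (a j) = (1 / 32 : ℝ) • (a i + a j) + Qf mul a q := by
  subst hj
  rw [mul_eq_gg, D.Qf_parity hq]
  rfl

lemma c_Q' (D : Dih mul B a τ) {i j q : ℤ} (hj : j = i - 2) (hq : (q - i) % 2 = 0) :
    mul (a i) (a j) = (1 / 32 : ℝ) • (a i + a j) + Qf mul a q := by
  subst hj
  rw [mul_eq_gg, D.gg_minus_two, D.Qf_parity hq]

lemma a_Q (D : Dih mul B a τ) {i j k q : ℤ} (hj : j = i + 2) (hk : k = i - 2)
    (hq : (q - i) % 2 = 0) :
    mul (a i) (Qf mul a q) = (3 / 4 * mm B a - 25 / 1024) • a i + (7 / 2048 : ℝ) • (a j + a k) +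
      (7 / 32 : ℝ) • Qf mul a q := by
  have h := mul_g (D.ax i) (D.c_Q hj hq)
  rw [D.refl, show 2 * i - j = k by omega, D.T_two' (show j = i + 2 from hj)] at h
  exact h

lemma idem (D : Dih mul B a τ) (i : ℤ) : mul (a i) (a i) = a i := (D.ax i).idem

lemma B_mul_self (D : Dih mul B a τ) (i j : ℤ) : B (mul (a i) (a j)) (a i) = B (a j) (a i) := by
  rw [D.comm, ← D.assoc, D.idem]

lemma B_mul_self' (D : Dih mul B a τ) (i j : ℤ) : B (mul (a i) (a j)) (a j) = B (a i) (a j) := by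
  rw [← D.assoc, D.idem]

lemma B_s (D : Dih mul B a τ) (i : ℤ) : B (ss mul a) (a i) = (31 * ll B a - 1) / 32 := by
  unfold ss
  rw [← D.gg_one i]
  unfold gg
  simp only [map_add, map_sub, map_smul, LinearMap.add_apply, LinearMap.sub_apply,
    LinearMap.smul_apply, smul_eq_mul, D.B_mul_self, D.norm_eq]
  rw [D.T_one' (show i + 1 = i + 1 from rfl)]
  ring

lemma B_s' (D : Dih mul B a τ) (i : ℤ) : B (a i) (ss mul a) = (31 * ll B a - 1) / 32 := by
  rw [D.symm, D.B_s]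

lemma B_ss (D : Dih mul B a τ) :
    B (ss mul a) (ss mul a) =
      3 / 4 * ll B a ^ 2 + 65 / 512 * ll B a + 7 / 2048 * mm B a - 3 / 2048 := by
  have h0 : ss mul a = mul (a 1) (a 0) - (1 / 32 : ℝ) • (a 0 + a 1) := by
    unfold ss gg
    rw [D.comm]
  have h1 : B (mul (a 1) (a 0)) (ss mul a) = B (a 1) (mul (a 0) (ss mul a)) := (D.assoc _ _ _).symm
  have h2 := D.a_s (i := 0) (j := 1) (k := -1) (by norm_num) (by norm_num)
  have h3 : B (a 1) (a (-1)) = mm B a := D.T_two' (by norm_num)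
  have h4 : B (a 1) (a 0) = ll B a := D.T_one' (by norm_num)
  have h5 : B (ss mul a) (ss mul a) = B (mul (a 1) (a 0) - (1 / 32 : ℝ) • (a 0 + a 1)) (ss mul a) := by
    rw [← h0]
  rw [h5]
  simp only [map_sub, map_smul, map_add, LinearMap.sub_apply, LinearMap.smul_apply,
    LinearMap.add_apply, smul_eq_mul]
  rw [h1, h2]
  simp only [map_sub, map_smul, map_add, LinearMap.sub_apply, LinearMap.smul_apply,
    LinearMap.add_apply, smul_eq_mul, h3, h4, D.norm_eq, D.B_s, D.B_s']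
  ring

lemma B_Q (D : Dih mul B a τ) {i q : ℤ} (hq : (q - i) % 2 = 0) :
    B (Qf mul a q) (a i) = (31 * mm B a - 1) / 32 := by
  rw [D.Qf_parity hq]
  unfold Qf gg
  simp only [map_add, map_sub, map_smul, LinearMap.add_apply, LinearMap.sub_apply,
    LinearMap.smul_apply, smul_eq_mul, D.B_mul_self, D.norm_eq]
  rw [D.T_two' (show i + 2 = i + 2 from rfl)]
  ring

lemma B_Q_other (D : Dih mul B a τ) {i q : ℤ} (hq : (q - i) % 2 = 1) :
    B (Qf mul a q) (a i) = (30 * ll B a + mm B a - 1) / 32 := by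
  rw [D.Qf_parity (n' := i - 1) (by omega)]
  unfold Qf gg
  have h1 : B (mul (a (i - 1)) (a (i - 1 + 2))) (a i) =
      B (a (i - 1)) (mul (a (i - 1 + 2)) (a i)) := (D.assoc _ _ _).symm
  have h2 := D.c_s' (i := i - 1 + 2) (j := i) (by ring)
  rw [show i - 1 + 2 = i + 1 by ring] at h1 h2 ⊢
  simp only [map_add, map_sub, map_smul, LinearMap.add_apply, LinearMap.sub_apply,
    LinearMap.smul_apply, smul_eq_mul]
  rw [h1, h2]
  simp only [map_add, map_sub, map_smul, LinearMap.add_apply, LinearMap.sub_apply,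
    LinearMap.smul_apply, smul_eq_mul, D.B_s']
  rw [D.T_two (show i + 1 = i - 1 + 2 by ring), D.T_one (show i = i - 1 + 1 by ring),
    D.T_one' (show i + 1 = i + 1 from rfl)]
  ring

lemma B_beta (D : Dih mul B a τ) {i j j' : ℤ} (hj : j = i + 1) (hj' : j' = i - 1) :
    B ((1 / 16 : ℝ) • (a j + a j') + (1 / 8 - 4 * ll B a) • a i + (4 : ℝ) • ss mul a)
      ((1 / 16 : ℝ) • (a j + a j') + (1 / 8 - 4 * ll B a) • a i + (4 : ℝ) • ss mul a) =
      4 * ll B a * (1 - ll B a) - (1 - mm B a) / 16 := by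
  have h1 : B (a j) (a j') = mm B a := D.T_two' (by omega)
  have h2 : B (a j') (a j) = mm B a := D.T_two (by omega)
  have h3 : B (a j) (a i) = ll B a := D.T_one' hj
  have h4 : B (a i) (a j) = ll B a := D.T_one hj
  have h5 : B (a j') (a i) = ll B a := D.T_one (by omega)
  have h6 : B (a i) (a j') = ll B a := D.T_one' (by omega)
  simp only [map_add, map_smul, LinearMap.add_apply, LinearMap.smul_apply, smul_eq_mul, h1, h2, h3,
    h4, h5, h6, D.norm_eq, D.B_s, D.B_s', D.B_ss]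
  ring

/-- The formula `a_i O`. -/
theorem PF (D : Dih mul B a τ) {i j j' k k' n q : ℤ} (hj : j = i + 1) (hj' : j' = i - 1)
    (hk : k = i + 2) (hk' : k' = i - 2) (hn : (n - i) % 2 = 1) (hq : (q - i) % 2 = 0) :
    mul (a i) (Qf mul a n) = (ll B a / 6 - 19 / 3072) • (a j + a j') + (7 / 6144 : ℝ) • (a k + a k') +
      (-(32 / 3) * ll B a ^ 2 + 5 / 3 * ll B a - mm B a / 24 - 127 / 3072) • a i +
      (7 / 96 : ℝ) • Qf mul a q + (32 / 3 * ll B a - 19 / 48) • ss mul a := by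
  have hbb' : mul (a j) (a j') = (1 / 32 : ℝ) • (a j + a j') + Qf mul a n :=
    D.c_Q' (by omega) (by omega)
  refine center_PF (D.ax i) D.comm (D.c_s hj) (D.c_s' hj') (D.c_Q hk hq) (D.c_Q' hk' hq)
    (D.a_s hj hj') (D.a_Q hk hk' hq) hbb' (D.idem j) (D.idem j') ?_ ?_ (D.B_beta hj hj')
  · exact D.a_s (i := j) (j := k) (k := i) (by omega) (by omega)
  · exact D.a_s (i := j') (j := i) (k := k') (by omega) (by omega)

/-- The formula for `s s`. -/
theorem SF (D : Dih mul B a τ) {i j j' k k' n q : ℤ} (hj : j = i + 1) (hj' : j' = i - 1)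
    (hk : k = i + 2) (hk' : k' = i - 2) (hn : (n - i) % 2 = 1) (hq : (q - i) % 2 = 0) :
    mul (ss mul a) (ss mul a) =
      (49 / 768 * ll B a - 245 / 196608) • (a j + a j') + (49 / 196608 : ℝ) • (a k + a k') +
      (7 / 6 * ll B a ^ 2 - 7 / 384 * ll B a + 7 / 1536 * mm B a - 7 / 98304) • a i +
      (7 / 2048 : ℝ) • Qf mul a n - (7 / 1536 : ℝ) • Qf mul a q -
      (5 / 12 * ll B a + 13 / 1536) • ss mul a := by
  have hbb' : mul (a j) (a j') = (1 / 32 : ℝ) • (a j + a j') + Qf mul a n :=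
    D.c_Q' (by omega) (by omega)
  refine center_SF (D.ax i) D.comm (D.c_s hj) (D.c_s' hj') (D.c_Q hk hq) (D.c_Q' hk' hq)
    (D.a_s hj hj') (D.a_Q hk hk' hq) hbb' (D.idem j) (D.idem j') ?_ ?_ (D.B_beta hj hj')
    (D.PF hj hj' hk hk' hn hq)
  · exact D.a_s (i := j) (j := k) (k := i) (by omega) (by omega)
  · exact D.a_s (i := j') (j := i) (k := k') (by omega) (by omega)

/-- The formula for the element at distance three. -/
theorem XF (D : Dih mul B a τ) {i j j' k k' e e' n q : ℤ} (hj : j = i + 1) (hj' : j' = i - 1)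
    (hk : k = i + 2) (hk' : k' = i - 2) (he : e = i + 3) (he' : e' = i - 3)
    (hn : (n - i) % 2 = 1) (hq : (q - i) % 2 = 0) :
    gg mul a i e =
      (512 * ll B a ^ 2 - 176 / 3 * ll B a + 2 * mm B a + 187 / 192) • (a j + a j') +
      (28 * ll B a - 161 / 192) • (a k + a k') + (7 / 64 : ℝ) • (a e + a e') +
      (63488 / 21 * ll B a ^ 2 - 3848 / 21 * ll B a - 256 / 21 * mm B a + 1913 / 672) • a i -
      (8 : ℝ) • Qf mul a n + (-256 * ll B a + 31 / 3) • Qf mul a q +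
      (-(32768 / 7) * ll B a ^ 2 + 19456 / 21 * ll B a - 128 / 7 * mm B a - 491 / 21) • ss mul a := by
  have had : mul (a i) (a e) = (1 / 32 : ℝ) • (a i + a e) + gg mul a i e := mul_eq_gg _ _
  have had' : mul (a i) (a e') = (1 / 32 : ℝ) • (a i + a e') + gg mul a i e := by
    subst he he'
    rw [mul_eq_gg, D.gg_minus_three]
  refine center_XF (D.ax i) D.comm (D.c_s hj) (D.c_s' hj') (D.c_Q hk hq) (D.c_Q' hk' hq) had had'
    (D.a_s hj hj') (D.a_Q hk hk' hq) ?_ ?_ (D.PF hj hj' hk hk' hn hq) ?_ ?_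
  · exact D.a_s (i := k) (j := e) (k := j) (by omega) (by omega)
  · exact D.a_s (i := k') (j := j') (k := e') (by omega) (by omega)
  · exact D.PF (i := j) (j := k) (j' := i) (k := e) (k' := j') (n := q) (q := n) (by omega)
      (by omega) (by omega) (by omega) (by omega) (by omega)
  · exact D.PF (i := j') (j := i) (j' := k') (k := j) (k' := e') (n := q) (q := n) (by omega)
      (by omega) (by omega) (by omega) (by omega) (by omega)

lemma B_gg3_a2 (D : Dih mul B a τ) :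
    B (gg mul a 0 3) (a 2) = (B (a 0) (a 3) + 30 * ll B a - 1) / 32 := by
  unfold gg
  have h1 : B (mul (a 0) (a 3)) (a 2) = B (a 3) (mul (a 0) (a 2)) := by
    rw [D.comm (a 0) (a 3), D.assoc]
  have h2 := D.c_Q (i := 0) (j := 2) (q := 0) (by norm_num) (by norm_num)
  have h3 : B (a 3) (Qf mul a 0) = (30 * ll B a + mm B a - 1) / 32 := by
    rw [D.symm]
    exact D.B_Q_other (by norm_num)
  have h4 : B (a 3) (a 0) = B (a 0) (a 3) := D.symm _ _
  have h5 : B (a 3) (a 2) = ll B a := D.T_one' (by norm_num)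
  have h6 : B (a 0) (a 2) = mm B a := rfl
  simp only [map_add, map_sub, map_smul, LinearMap.add_apply, LinearMap.sub_apply,
    LinearMap.smul_apply, smul_eq_mul]
  rw [h1, h2]
  simp only [map_add, map_sub, map_smul, LinearMap.add_apply, LinearMap.sub_apply,
    LinearMap.smul_apply, smul_eq_mul, h3, h4, h5, h6]
  ring

lemma B_gg3_a3 (D : Dih mul B a τ) :
    B (gg mul a 0 3) (a 3) = (31 * B (a 0) (a 3) - 1) / 32 := by
  unfold gg
  simp only [map_add, map_sub, map_smul, LinearMap.add_apply, LinearMap.sub_apply,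
    LinearMap.smul_apply, smul_eq_mul, D.B_mul_self', D.norm_eq]
  ring

/-- One of the inner products at distance at most six equals one. -/
theorem exists_inner_one (D : Dih mul B a τ) :
    ll B a = 1 ∨ mm B a = 1 ∨ B (a 0) (a 3) = 1 ∨ B (a 0) (a 4) = 1 ∨ B (a 0) (a 5) = 1 ∨
      B (a (-3)) (a 3) = 1 := by
  have hT_1_0 : B (a (1)) (a (0)) = ll B a := D.T_one' (by norm_num)
  have hT_m1_0 : B (a (-1)) (a (0)) = ll B a := D.T_one (by norm_num)
  have hT_2_0 : B (a (2)) (a (0)) = mm B a := D.T_two' (by norm_num)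
  have hT_m2_0 : B (a (-2)) (a (0)) = mm B a := D.T_two (by norm_num)
  have hT_0_0 : B (a (0)) (a (0)) = 1 := D.norm_eq _
  have hT_3_0 : B (a (3)) (a (0)) = B (a 0) (a 3) := (D.symm _ _).trans (rfl)
  have hT_4_0 : B (a (4)) (a (0)) = B (a 0) (a 4) := (D.symm _ _).trans (rfl)
  have hT_2_1 : B (a (2)) (a (1)) = ll B a := D.T_one' (by norm_num)
  have hT_0_1 : B (a (0)) (a (1)) = ll B a := D.T_one (by norm_num)
  have hT_3_1 : B (a (3)) (a (1)) = mm B a := D.T_two' (by norm_num)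
  have hT_m1_1 : B (a (-1)) (a (1)) = mm B a := D.T_two (by norm_num)
  have hT_1_1 : B (a (1)) (a (1)) = 1 := D.norm_eq _
  have hT_4_1 : B (a (4)) (a (1)) = B (a 0) (a 3) := (D.symm _ _).trans (D.T_congr (i := 0) (j := 3) (i' := 1) (j' := 4) (by norm_num) (by norm_num))
  have hT_5_1 : B (a (5)) (a (1)) = B (a 1) (a 5) := (D.symm _ _).trans (rfl)
  have hT_1_m1 : B (a (1)) (a (-1)) = mm B a := D.T_two' (by norm_num)
  have hT_m1_m1 : B (a (-1)) (a (-1)) = 1 := D.norm_eq _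
  have hT_2_m1 : B (a (2)) (a (-1)) = B (a 0) (a 3) := (D.symm _ _).trans (D.T_congr (i := 0) (j := 3) (i' := -1) (j' := 2) (by norm_num) (by norm_num))
  have hT_m2_m1 : B (a (-2)) (a (-1)) = ll B a := D.T_one (by norm_num)
  have hT_0_m1 : B (a (0)) (a (-1)) = ll B a := D.T_one' (by norm_num)
  have hT_3_m1 : B (a (3)) (a (-1)) = B (a 1) (a 5) := (D.symm _ _).trans (D.T_congr (i := 1) (j := 5) (i' := -1) (j' := 3) (by norm_num) (by norm_num))
  have hT_4_m1 : B (a (4)) (a (-1)) = B (a 0) (a 5) := (D.symm _ _).trans (D.T_congr (i := 0) (j := 5) (i' := -1) (j' := 4) (by norm_num) (by norm_num))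
  have hT_0_3 : B (a (0)) (a (3)) = B (a 0) (a 3) := rfl
  have hT_m2_3 : B (a (-2)) (a (3)) = B (a 0) (a 5) := D.T_congr (i := 0) (j := 5) (i' := -2) (j' := 3) (by norm_num) (by norm_num)
  have hT_1_3 : B (a (1)) (a (3)) = mm B a := D.T_two (by norm_num)
  have hT_m3_3 : B (a (-3)) (a (3)) = B (a (-3)) (a 3) := rfl
  have hT_m1_3 : B (a (-1)) (a (3)) = B (a 1) (a 5) := D.T_congr (i := 1) (j := 5) (i' := -1) (j' := 3) (by norm_num) (by norm_num)
  have hT_2_3 : B (a (2)) (a (3)) = ll B a := D.T_one (by norm_num)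
  have hT_3_3 : B (a (3)) (a (3)) = 1 := D.norm_eq _
  have hT_1_2 : B (a (1)) (a (2)) = ll B a := D.T_one (by norm_num)
  have hT_m1_2 : B (a (-1)) (a (2)) = B (a 0) (a 3) := D.T_congr (i := 0) (j := 3) (i' := -1) (j' := 2) (by norm_num) (by norm_num)
  have hT_2_2 : B (a (2)) (a (2)) = 1 := D.norm_eq _
  have hT_m2_2 : B (a (-2)) (a (2)) = B (a 0) (a 4) := D.T_congr (i := 0) (j := 4) (i' := -2) (j' := 2) (by norm_num) (by norm_num)
  have hT_3_2 : B (a (3)) (a (2)) = ll B a := D.T_one' (by norm_num)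
  have hT_m3_2 : B (a (-3)) (a (2)) = B (a 0) (a 5) := D.T_congr (i := 0) (j := 5) (i' := -3) (j' := 2) (by norm_num) (by norm_num)
  have hT_0_2 : B (a (0)) (a (2)) = mm B a := D.T_two (by norm_num)
  have S0 := D.SF (i := 0) (j := 1) (j' := -1) (k := 2) (k' := -2) (n := 1) (q := 0) (by norm_num) (by norm_num) (by norm_num) (by norm_num) (by norm_num) (by norm_num)
  have S1 := D.SF (i := 1) (j := 2) (j' := 0) (k := 3) (k' := -1) (n := 0) (q := 1) (by norm_num) (by norm_num) (by norm_num) (by norm_num) (by norm_num) (by norm_num)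
  have S2 := D.SF (i := 2) (j := 3) (j' := 1) (k := 4) (k' := 0) (n := 1) (q := 0) (by norm_num) (by norm_num) (by norm_num) (by norm_num) (by norm_num) (by norm_num)
  have S3 := D.SF (i := 3) (j := 4) (j' := 2) (k := 5) (k' := 1) (n := 0) (q := 1) (by norm_num) (by norm_num) (by norm_num) (by norm_num) (by norm_num) (by norm_num)
  have Sm := D.SF (i := -1) (j := 0) (j' := -2) (k := 1) (k' := -3) (n := 0) (q := 1) (by norm_num) (by norm_num) (by norm_num) (by norm_num) (by norm_num) (by norm_num)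
  have X0 := D.XF (i := 0) (j := 1) (j' := -1) (k := 2) (k' := -2) (e := 3) (e' := -3) (n := 1) (q := 0) (by norm_num) (by norm_num) (by norm_num) (by norm_num) (by norm_num) (by norm_num) (by norm_num) (by norm_num)
  have e01 := congrArg (fun z => B z (a 0)) (S0.symm.trans S1)
  have e02 := congrArg (fun z => B z (a 0)) (S0.symm.trans S2)
  have e13 := congrArg (fun z => B z (a 1)) (S1.symm.trans S3)
  have e02m := congrArg (fun z => B z (a (-1))) (S0.symm.trans S2)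
  have em1 := congrArg (fun z => B z (a 3)) (Sm.symm.trans S1)
  have x2 := congrArg (fun z => B z (a 2)) X0
  have x3 := congrArg (fun z => B z (a 3)) X0
  have hq00 : B (Qf mul a 0) (a 0) = (31 * mm B a - 1) / 32 := D.B_Q (by norm_num)
  have hp0 : B (Qf mul a 1) (a 0) = (30 * ll B a + mm B a - 1) / 32 := D.B_Q_other (by norm_num)
  have hq2 : B (Qf mul a 0) (a 2) = (31 * mm B a - 1) / 32 := D.B_Q (by norm_num)
  have hp2 : B (Qf mul a 1) (a 2) = (30 * ll B a + mm B a - 1) / 32 := D.B_Q_other (by norm_num)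
  have hq3 : B (Qf mul a 0) (a 3) = (30 * ll B a + mm B a - 1) / 32 := D.B_Q_other (by norm_num)
  have hp3 : B (Qf mul a 1) (a 3) = (31 * mm B a - 1) / 32 := D.B_Q (by norm_num)
  simp only [map_add, map_sub, map_smul, LinearMap.add_apply, LinearMap.sub_apply,
    LinearMap.smul_apply, smul_eq_mul, hT_1_0, hT_m1_0, hT_2_0, hT_m2_0, hT_0_0, hT_3_0, hT_4_0, hT_2_1, hT_0_1, hT_3_1, hT_m1_1, hT_1_1, hT_4_1, hT_5_1, hT_1_m1, hT_m1_m1, hT_2_m1, hT_m2_m1, hT_0_m1, hT_3_m1, hT_4_m1, hT_0_3, hT_m2_3, hT_1_3, hT_m3_3, hT_m1_3, hT_2_3, hT_3_3, hT_1_2, hT_m1_2, hT_2_2, hT_m2_2, hT_3_2, hT_m3_2, hT_0_2, hq00, hp0, hq2, hp2, hq3, hp3, D.B_s, D.B_gg3_a2, D.B_gg3_a3] at e01 e02 e13 e02m em1 x2 x3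
  have hT3 : B (a 0) (a 3) = 30 * (ll B a - mm B a) - (256 * ll B a - 5) * (1 + mm B a - 2 * ll B a) -
      ll B a + 2 * mm B a -
      ((32768 * ll B a ^ 2 - 512 * ll B a + 128 * mm B a - 9) / 7 + 1) * (ll B a - 1) := by
    linear_combination (-(196608 / 49) : ℝ) * e01
  have hT40 : B (a 0) (a 4) = mm B a + (256 * ll B a - 5) * (ll B a - B (a 0) (a 3)) +
      (32768 * ll B a ^ 2 - 512 * ll B a + 128 * mm B a - 9) / 7 * (1 - mm B a) := by
    linear_combination (-(196608 / 49) : ℝ) * e02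
  have hT41 : B (a 1) (a 5) = mm B a + (256 * ll B a - 5) * (ll B a - B (a 0) (a 3)) +
      (32768 * ll B a ^ 2 - 512 * ll B a + 128 * mm B a - 9) / 7 * (1 - mm B a) := by
    linear_combination (-(196608 / 49) : ℝ) * e13
  have hT5 : B (a 0) (a 5) = ll B a + (256 * ll B a - 5) * (1 - B (a 1) (a 5)) +
      (32768 * ll B a ^ 2 - 512 * ll B a + 128 * mm B a - 9) / 7 * (ll B a - B (a 0) (a 3)) := by
    linear_combination (-(196608 / 49) : ℝ) * e02m
  have hT6 : B (a (-3)) (a 3) = 1 + (256 * ll B a - 5) * (ll B a - B (a 0) (a 5)) +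
      (32768 * ll B a ^ 2 - 512 * ll B a + 128 * mm B a - 9) / 7 * (mm B a - B (a 1) (a 5)) := by
    linear_combination (196608 / 49 : ℝ) * em1
  exact numeric_core hT3 hT40 hT41 hT5 hT6 (by linear_combination x2) (by linear_combination x3)

end Dih

end Cfsg.Agent.Lib.Linalg.Majorana
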