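import Mathlib

/-!
# Peeling cyclic summands off a nilpotent endomorphism

A cyclic chain `v, N v, …, N^(e-1) v` with a functional `φ` detecting `N^(e-1) v` and killing the image of `N^e`
splits off as a direct summand, with the kernel of `u ↦ (φ (N^i u))_i` as an invariant complement.  Iterating this
gives a basis in which a nilpotent endomorphism has entries `0` and `1`.
-/

set_option autoImplicit false

open Module

namespace Cfsg.Agent.Lib.Linalg.NilPeel

universe u

section Peel

variable {F : Type*} [Field F] {V : Type u} [AddCommGroup V] [Module F V]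

/-- The map `u ↦ (φ (N^i u))_i`. -/
def psi (N : V →ₗ[F] V) (φ : V →ₗ[F] F) (e : ℕ) : V →ₗ[F] (Fin e → F) :=
  LinearMap.pi fun i => φ ∘ₗ (N ^ (i : ℕ))

/-- The map `a ↦ ∑ a_i N^i v`. -/
noncomputable def comb (N : V →ₗ[F] V) (v : V) (e : ℕ) : (Fin e → F) →ₗ[F] V :=
  Fintype.linearCombination F (fun i : Fin e => (N ^ (i : ℕ)) v)

theorem comb_apply (N : V →ₗ[F] V) (v : V) (e : ℕ) (a : Fin e → F) :
    comb N v e a = ∑ i, a i • (N ^ (i : ℕ)) v := by
  simp [comb, Fintype.linearCombination_apply]

theorem psi_mem_ker {N : V →ₗ[F] V} {φ : V →ₗ[F] F} {e : ℕ} {u : V} :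
    u ∈ LinearMap.ker (psi N φ e) ↔ ∀ i : Fin e, φ ((N ^ (i : ℕ)) u) = 0 := by
  rw [LinearMap.mem_ker, funext_iff]
  rfl

theorem pow_apply_of_le {N : V →ₗ[F] V} {v : V} {e t : ℕ} (hv : (N ^ e) v = 0) (h : e ≤ t) : (N ^ t) v = 0 := by
  obtain ⟨s, rfl⟩ := Nat.exists_eq_add_of_le h
  rw [add_comm, pow_add, Module.End.mul_apply, hv, map_zero]

/-- The pairing is nondegenerate on the chain. -/
theorem psi_comb_injective {N : V →ₗ[F] V} {φ : V →ₗ[F] F} {v : V} {e : ℕ} (he : 1 ≤ e) (hv : (N ^ e) v = 0)
    (hφv : φ ((N ^ (e - 1)) v) ≠ 0) : Function.Injective (psi N φ e ∘ₗ comb N v e) := by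
  rw [← LinearMap.ker_eq_bot, LinearMap.ker_eq_bot']
  intro a ha
  have key : ∀ s : ℕ, ∀ i : Fin e, (i : ℕ) = s → a i = 0 := by
    intro s
    induction s using Nat.strong_induction_on with
    | _ s ih =>
      intro i hi
      have h1 : (psi N φ e (comb N v e a)) ⟨e - 1 - s, by have := i.2; omega⟩ = 0 := by
        have := congrFun ha ⟨e - 1 - s, by have := i.2; omega⟩
        simpa using this
      have h2 : (psi N φ e (comb N v e a)) ⟨e - 1 - s, by have := i.2; omega⟩ =
          ∑ j : Fin e, a j * φ ((N ^ (e - 1 - s + (j : ℕ))) v) := by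
        change φ ((N ^ (e - 1 - s)) (comb N v e a)) = _
        rw [comb_apply, map_sum, map_sum]
        refine Finset.sum_congr rfl fun j _ => ?_
        rw [map_smul, map_smul, smul_eq_mul, pow_add, Module.End.mul_apply]
      rw [h2, Finset.sum_eq_single i] at h1
      · have h3 : e - 1 - s + (i : ℕ) = e - 1 := by have := i.2; omega
        rw [h3] at h1
        exact (mul_eq_zero.mp h1).resolve_right hφv
      · intro j _ hj
        rcases lt_or_gt_of_ne (fun h : (j : ℕ) = i => hj (Fin.ext h)) with hlt | hgt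
        · rw [ih j (by omega) j rfl, zero_mul]
        · rw [pow_apply_of_le hv (by have := i.2; omega), map_zero, mul_zero]
      · simp
  funext i
  exact key _ i rfl

variable [FiniteDimensional F V]

theorem psi_comb_surjective {N : V →ₗ[F] V} {φ : V →ₗ[F] F} {v : V} {e : ℕ} (he : 1 ≤ e) (hv : (N ^ e) v = 0)
    (hφv : φ ((N ^ (e - 1)) v) ≠ 0) : Function.Surjective (psi N φ e ∘ₗ comb N v e) :=
  LinearMap.injective_iff_surjective.mp (psi_comb_injective he hv hφv)

/-- The decomposition as a linear equivalence. -/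
noncomputable def peelEquiv {N : V →ₗ[F] V} {φ : V →ₗ[F] F} {v : V} {e : ℕ} (he : 1 ≤ e) (hv : (N ^ e) v = 0)
    (hφv : φ ((N ^ (e - 1)) v) ≠ 0) : ((Fin e → F) × LinearMap.ker (psi N φ e)) ≃ₗ[F] V :=
  LinearEquiv.ofBijective (LinearMap.coprod (comb N v e) (LinearMap.ker (psi N φ e)).subtype) (by
    constructor
    · rw [← LinearMap.ker_eq_bot, LinearMap.ker_eq_bot']
      rintro ⟨a, u⟩ h
      have h0 : comb N v e a + (u : V) = 0 := by simpa using h
      have h1 : psi N φ e (comb N v e a) = 0 := by
        have h2 := congrArg (psi N φ e) h0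
        rw [map_add, map_zero, LinearMap.mem_ker.mp u.2, add_zero] at h2
        exact h2
      have h3 : a = 0 := by
        apply psi_comb_injective he hv hφv
        rw [map_zero]
        exact h1
      subst h3
      have h4 : (u : V) = 0 := by simpa using h0
      ext <;> simp [h4]
    · intro t
      obtain ⟨a, ha⟩ := psi_comb_surjective he hv hφv (psi N φ e t)
      refine ⟨(a, ⟨t - comb N v e a, ?_⟩), ?_⟩
      · rw [LinearMap.mem_ker, map_sub, sub_eq_zero]
        exact ha.symm
      · simp)

/-- The complement is `N`-invariant. -/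
theorem ker_psi_invariant {N : V →ₗ[F] V} {φ : V →ₗ[F] F} {e : ℕ} (hφ : ∀ u, φ ((N ^ e) u) = 0) :
    ∀ u ∈ LinearMap.ker (psi N φ e), N u ∈ LinearMap.ker (psi N φ e) := by
  intro u hu
  rw [psi_mem_ker] at hu ⊢
  intro i
  rw [← Module.End.mul_apply, ← pow_succ]
  by_cases h : (i : ℕ) + 1 < e
  · exact hu ⟨i + 1, h⟩
  · have : (i : ℕ) + 1 = e := by have := i.2; omega
    rw [this]
    exact hφ u

/-- The basis obtained from a basis of the complement. -/
noncomputable def peelBasis {N : V →ₗ[F] V} {φ : V →ₗ[F] F} {v : V} {e : ℕ} (he : 1 ≤ e) (hv : (N ^ e) v = 0)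
    (hφv : φ ((N ^ (e - 1)) v) ≠ 0) {ι : Type*} (c : Basis ι F (LinearMap.ker (psi N φ e))) :
    Basis (Fin e ⊕ ι) F V :=
  ((Pi.basisFun F (Fin e)).prod c).map (peelEquiv he hv hφv)

theorem peelBasis_inl {N : V →ₗ[F] V} {φ : V →ₗ[F] F} {v : V} {e : ℕ} (he : 1 ≤ e) (hv : (N ^ e) v = 0)
    (hφv : φ ((N ^ (e - 1)) v) ≠ 0) {ι : Type*} (c : Basis ι F (LinearMap.ker (psi N φ e))) (i : Fin e) :
    peelBasis he hv hφv c (Sum.inl i) = (N ^ (i : ℕ)) v := by
  classical
  simp [peelBasis, peelEquiv, comb, Pi.basisFun_apply]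

theorem peelBasis_inr {N : V →ₗ[F] V} {φ : V →ₗ[F] F} {v : V} {e : ℕ} (he : 1 ≤ e) (hv : (N ^ e) v = 0)
    (hφv : φ ((N ^ (e - 1)) v) ≠ 0) {ι : Type*} (c : Basis ι F (LinearMap.ker (psi N φ e))) (i : ι) :
    peelBasis he hv hφv c (Sum.inr i) = (c i : V) := by
  classical
  have h : peelBasis he hv hφv c (Sum.inr i) =
      LinearMap.coprod (comb N v e) (LinearMap.ker (psi N φ e)).subtype (0, c i) := by
    simp only [peelBasis, Basis.map_apply, Basis.prod_apply, Sum.elim_inr, LinearMap.coe_inr]
    rfl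
  rw [h]
  simp

theorem finrank_ker_psi {N : V →ₗ[F] V} {φ : V →ₗ[F] F} {v : V} {e : ℕ} (he : 1 ≤ e) (hv : (N ^ e) v = 0)
    (hφv : φ ((N ^ (e - 1)) v) ≠ 0) : e + finrank F (LinearMap.ker (psi N φ e)) = finrank F V := by
  rw [← (peelEquiv he hv hφv).finrank_eq, Module.finrank_prod, Module.finrank_fin_fun]

/-- A commuting scaling of the chain with prescribed determinant `c^e`. -/
theorem exists_commuting_scaling {N : V →ₗ[F] V} {φ : V →ₗ[F] F} {v : V} {e : ℕ} (he : 1 ≤ e) (hv : (N ^ e) v = 0)
    (hφ : ∀ u, φ ((N ^ e) u) = 0) (hφv : φ ((N ^ (e - 1)) v) ≠ 0) (c : F) :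
    ∃ T : V →ₗ[F] V, T ∘ₗ N = N ∘ₗ T ∧ LinearMap.det T = c ^ e := by
  classical
  let c₀ := Module.finBasis F (LinearMap.ker (psi N φ e))
  let b := peelBasis he hv hφv c₀
  let d : Fin e ⊕ Fin (finrank F (LinearMap.ker (psi N φ e))) → F := Sum.elim (fun _ => c) (fun _ => 1)
  let T : V →ₗ[F] V := b.constr F (fun t => d t • b t)
  have hT : ∀ t, T (b t) = d t • b t := fun t => by simp [T, Basis.constr_basis]
  have hW : ∀ u : LinearMap.ker (psi N φ e), T (u : V) = u := by
    intro u
    have : T ∘ₗ (LinearMap.ker (psi N φ e)).subtype = (LinearMap.ker (psi N φ e)).subtype := by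
      apply c₀.ext
      intro i
      have h1 := hT (Sum.inr i)
      have h2 : b (Sum.inr i) = (c₀ i : V) := peelBasis_inr he hv hφv c₀ i
      rw [h2] at h1
      simpa [d] using h1
    exact congrArg (fun f => f u) this
  refine ⟨T, ?_, ?_⟩
  · apply b.ext
    rintro (i | i)
    · have h1 : b (Sum.inl i) = (N ^ (i : ℕ)) v := peelBasis_inl he hv hφv c₀ i
      simp only [LinearMap.comp_apply]
      rw [hT, map_smul, h1]
      have h2 : N ((N ^ (i : ℕ)) v) = (N ^ ((i : ℕ) + 1)) v := by
        rw [pow_succ', Module.End.mul_apply]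
      rw [h2]
      by_cases h : (i : ℕ) + 1 < e
      · have h3 : b (Sum.inl ⟨i + 1, h⟩) = (N ^ ((i : ℕ) + 1)) v := peelBasis_inl he hv hφv c₀ _
        rw [← h3, hT]
        rfl
      · have : (i : ℕ) + 1 = e := by have := i.2; omega
        rw [this, hv]
        simp
    · have h2 : b (Sum.inr i) = (c₀ i : V) := peelBasis_inr he hv hφv c₀ i
      simp only [LinearMap.comp_apply]
      rw [hT, h2]
      have h3 := hW ⟨N (c₀ i : V), ker_psi_invariant hφ _ (c₀ i).2⟩
      rw [show (⟨N (c₀ i : V), ker_psi_invariant hφ _ (c₀ i).2⟩ : LinearMap.ker (psi N φ e)).1 = N (c₀ i : V) from rfl] at h3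
      rw [h3]
      simp [d]
  · have h1 : LinearMap.det T = ∏ t, d t := by
      rw [← LinearMap.det_toMatrix b T]
      have : LinearMap.toMatrix b b T = Matrix.diagonal d := by
        ext i j
        rw [LinearMap.toMatrix_apply, hT, map_smul, Basis.repr_self, Finsupp.smul_single, Finsupp.single_apply,
          Matrix.diagonal_apply]
        by_cases hij : j = i
        · subst hij
          simp
        · simp [hij, Ne.symm hij]
      rw [this, Matrix.det_diagonal]
    rw [h1, Fintype.prod_sum_type]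
    simp [d]

end Peel

section Shift

variable {F : Type*} [Field F]

/-- A nilpotent endomorphism has a basis in which its matrix has entries `0` and `1`. -/
theorem exists_shift : ∀ (d : ℕ) (V : Type u) [AddCommGroup V] [Module F V] [FiniteDimensional F V],
    finrank F V = d → ∀ N : V →ₗ[F] V, IsNilpotent N →
    ∃ (ι : Type) (_ : Fintype ι) (_ : DecidableEq ι) (b : Basis ι F V) (M : Matrix ι ι F),
      (∀ i j, M i j = 0 ∨ M i j = 1) ∧ ∀ j, N (b j) = ∑ i, M i j • b i := by
  intro d
  induction d using Nat.strong_induction_on with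
  | _ d ih =>
    intro V _ _ _ hd N hN
    classical
    by_cases hd0 : d = 0
    · refine ⟨Fin d, inferInstance, inferInstance, Module.finBasisOfFinrankEq F V hd, 0, fun _ _ => Or.inl rfl, ?_⟩
      intro j
      subst hd0
      exact j.elim0
    have hne : Nontrivial V := by
      apply Module.nontrivial_of_finrank_pos (R := F)
      omega
    obtain ⟨m, hm⟩ := hN
    have hex : ∃ e, N ^ e = 0 := ⟨m, hm⟩
    let e := Nat.find hex
    have he0 : N ^ e = 0 := Nat.find_spec hex
    have he1 : 1 ≤ e := by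
      by_contra h
      have : e = 0 := by omega
      rw [this, pow_zero] at he0
      obtain ⟨x, hx⟩ := exists_ne (0 : V)
      exact hx (by simpa using congrArg (fun f => f x) he0)
    have hne' : N ^ (e - 1) ≠ 0 := Nat.find_min hex (by omega)
    obtain ⟨v, hv⟩ : ∃ v, (N ^ (e - 1)) v ≠ 0 := by
      by_contra h
      push Not at h
      exact hne' (LinearMap.ext h)
    obtain ⟨φ, hφ⟩ : ∃ φ : Module.Dual F V, φ ((N ^ (e - 1)) v) ≠ 0 := by
      by_contra h
      push Not at h
      exact hv ((Module.forall_dual_apply_eq_zero_iff F _).mp h)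
    have hve : (N ^ e) v = 0 := by rw [he0]; rfl
    have hφe : ∀ u, φ ((N ^ e) u) = 0 := fun u => by rw [he0]; simp
    set W := LinearMap.ker (psi N φ e) with hW
    have hinv : ∀ u ∈ W, N u ∈ W := ker_psi_invariant hφe
    have hfr : e + finrank F W = finrank F V := finrank_ker_psi he1 hve hφ
    have hpow : ∀ (t : ℕ) (u : W), (((N.restrict hinv) ^ t) u : V) = (N ^ t) (u : V) := by
      intro t
      induction t with
      | zero => intro u; simp
      | succ t iht =>
        intro u
        rw [pow_succ, Module.End.mul_apply, iht, pow_succ, Module.End.mul_apply]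
        rfl
    have hnil : IsNilpotent (N.restrict hinv) := by
      refine ⟨e, LinearMap.ext fun u => Subtype.ext ?_⟩
      rw [hpow, he0]
      rfl
    obtain ⟨ι, _, _, c, M, hM, hc⟩ := ih (finrank F W) (by omega) W rfl _ hnil
    let S : Matrix (Fin e) (Fin e) F := Matrix.of fun i j => if (i : ℕ) = (j : ℕ) + 1 then 1 else 0
    refine ⟨Fin e ⊕ ι, inferInstance, inferInstance, peelBasis he1 hve hφ c,
      Matrix.fromBlocks S 0 0 M, ?_, ?_⟩
    · rintro (i | i) (j | j)
      · simp only [Matrix.fromBlocks_apply₁₁, S, Matrix.of_apply]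
        split_ifs <;> simp
      · left; rfl
      · left; rfl
      · exact hM i j
    · rintro (j | j)
      · rw [Fintype.sum_sum_type]
        simp only [Matrix.fromBlocks_apply₁₁, Matrix.fromBlocks_apply₂₁, Matrix.zero_apply, zero_smul,
          Finset.sum_const_zero, add_zero]
        rw [peelBasis_inl]
        have h2 : N ((N ^ (j : ℕ)) v) = (N ^ ((j : ℕ) + 1)) v := by
          rw [pow_succ', Module.End.mul_apply]
        rw [h2]
        by_cases h : (j : ℕ) + 1 < e
        · rw [Finset.sum_eq_single (⟨(j : ℕ) + 1, h⟩ : Fin e)]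
          · rw [peelBasis_inl]
            simp [S]
          · intro i _ hi
            have : ¬ ((i : ℕ) = (j : ℕ) + 1) := fun h' => hi (Fin.ext h')
            simp [S, this]
          · simp
        · have h3 : (j : ℕ) + 1 = e := by have := j.2; omega
          rw [h3, hve]
          symm
          apply Finset.sum_eq_zero
          intro i _
          have : ¬ ((i : ℕ) = (j : ℕ) + 1) := by have := i.2; omega
          simp [S, this]
      · rw [Fintype.sum_sum_type]
        simp only [Matrix.fromBlocks_apply₁₂, Matrix.fromBlocks_apply₂₂, Matrix.zero_apply, zero_smul,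
          Finset.sum_const_zero, zero_add]
        rw [peelBasis_inr]
        have h3 := congrArg (fun u : W => (u : V)) (hc j)
        simp only [Submodule.coe_sum, Submodule.coe_smul] at h3
        have h4 : ((N.restrict hinv) (c j) : V) = N (c j : V) := rfl
        rw [h4] at h3
        rw [h3]
        refine Finset.sum_congr rfl fun i _ => ?_
        rw [peelBasis_inr]

end Shift

end Cfsg.Agent.Lib.Linalg.NilPeel
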