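import Mathlib

/-!
# The determinant on the centraliser of a semisimple endomorphism over a finite field

For a semisimple endomorphism `x` of a nonzero finite-dimensional space over a finite field, the
determinant maps the centraliser of `x` onto the nonzero scalars.
-/

set_option autoImplicit false

universe u v

namespace Cfsg.Agent.Lib.Linalg.SemisimpleCentralizer

open Module Polynomial

variable {F : Type u} [Field F] {V : Type v} [AddCommGroup V] [Module F V]

/-- A minimal nonzero invariant subspace. -/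
theorem exists_minimal_invariant [FiniteDimensional F V] [Nontrivial V] (x : End F V) :
    ∃ U : Submodule F V, U ≠ ⊥ ∧ (∀ v ∈ U, x v ∈ U) ∧
      ∀ W : Submodule F V, W ≤ U → (∀ v ∈ W, x v ∈ W) → W = ⊥ ∨ W = U := by
  classical
  let P : ℕ → Prop := fun d => ∃ U : Submodule F V, U ≠ ⊥ ∧ (∀ v ∈ U, x v ∈ U) ∧ finrank F U = d
  have hP : ∃ d, P d := ⟨finrank F (⊤ : Submodule F V), ⊤, top_ne_bot, fun _ _ => trivial, rfl⟩
  obtain ⟨U, hU, hinv, hd⟩ := Nat.find_spec hP
  refine ⟨U, hU, hinv, ?_⟩
  intro W hWU hW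
  by_cases h0 : W = ⊥
  · exact Or.inl h0
  · right
    have : Nat.find hP ≤ finrank F W := Nat.find_min' hP ⟨W, h0, hW, rfl⟩
    exact Submodule.eq_of_le_of_finrank_le hWU (by omega)

/-- A minimal invariant subspace is a one-dimensional vector space over a field extension,
on which `x` acts as multiplication by an element. -/
theorem exists_field_model (x : End F V) (U : Submodule F V) (hU : U ≠ ⊥)
    (hinv : ∀ v ∈ U, x v ∈ U)
    (hmin : ∀ W : Submodule F V, W ≤ U → (∀ v ∈ W, x v ∈ W) → W = ⊥ ∨ W = U) :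
    ∃ (E : Type u) (_ : Field E) (_ : Algebra F E) (Φ : E ≃ₗ[F] U) (r : E),
      ∀ b, Φ (r * b) = (x.restrict hinv) (Φ b) := by
  classical
  set y : End F U := x.restrict hinv with hy
  have hsimple : IsSimpleModule F[X] (AEval' y) := by
    rw [isSimpleModule_iff]
    have hnt : Nontrivial (AEval' y) := by
      obtain ⟨u, hu, hu0⟩ := Submodule.exists_mem_ne_zero_of_ne_bot hU
      refine ⟨⟨AEval'.of y ⟨u, hu⟩, 0, ?_⟩⟩
      intro h
      apply hu0
      have := (AEval'.of y).injective (h.trans (map_zero (AEval'.of y)).symm)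
      exact congrArg Subtype.val this
    refine { eq_bot_or_eq_top := ?_ }
    intro P
    let W : Submodule F V :=
      ((P.restrictScalars F).comap (AEval'.of y).toLinearMap).map U.subtype
    have hWmem : ∀ u : U, (u : V) ∈ W ↔ AEval'.of y u ∈ P := by
      intro u
      constructor
      · rintro ⟨u', hu', h⟩
        have : u' = u := Subtype.ext h
        rw [← this]
        exact hu'
      · intro hu
        exact ⟨u, hu, rfl⟩
    have hWle : W ≤ U := by
      rintro _ ⟨u, _, rfl⟩
      exact u.2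
    have hWinv : ∀ v ∈ W, x v ∈ W := by
      intro v hv
      have hvU := hWle hv
      have h1 : AEval'.of y ⟨v, hvU⟩ ∈ P := (hWmem ⟨v, hvU⟩).1 hv
      have h2 : AEval'.of y (y ⟨v, hvU⟩) ∈ P := by
        rw [← AEval'.X_smul_of]
        exact P.smul_mem _ h1
      exact (hWmem (y ⟨v, hvU⟩)).2 h2
    rcases hmin W hWle hWinv with h | h
    · left
      rw [eq_bot_iff]
      intro m hm
      obtain ⟨u, rfl⟩ := (AEval'.of y).surjective m
      have h3 : (u : V) ∈ W := (hWmem u).2 hm
      rw [h, Submodule.mem_bot] at h3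
      have h4 : u = 0 := Subtype.ext h3
      rw [h4, map_zero]
      exact Submodule.zero_mem _
    · right
      rw [eq_top_iff]
      intro m _
      obtain ⟨u, rfl⟩ := (AEval'.of y).surjective m
      have h3 : (u : V) ∈ W := by rw [h]; exact u.2
      exact (hWmem u).1 h3
  obtain ⟨I, hmax, ⟨e⟩⟩ := isSimpleModule_iff_quot_maximal.1 hsimple
  let _ : Field (F[X] ⧸ I) := Ideal.Quotient.field I
  let Φ : (F[X] ⧸ I) ≃ₗ[F] U := (e.symm.restrictScalars F).trans (AEval'.of y).symm
  refine ⟨F[X] ⧸ I, inferInstance, inferInstance, Φ, Ideal.Quotient.mk I X, ?_⟩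
  intro b
  have h1 : Ideal.Quotient.mk I (X : F[X]) * b = (X : F[X]) • b := by
    rw [Algebra.smul_def]
    rfl
  rw [h1]
  change (AEval'.of y).symm (e.symm ((X : F[X]) • b)) = y ((AEval'.of y).symm (e.symm b))
  rw [map_smul, AEval'.of_symm_X_smul]

/-- For a semisimple endomorphism of a nonzero finite-dimensional space over a finite field, the
determinant is surjective from the centraliser to the nonzero scalars. -/
theorem exists_commute_det [FiniteDimensional F V] [Finite F] [Nontrivial V] (x : End F V)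
    (hx : x.IsSemisimple) (t : F) : ∃ T : End F V, T * x = x * T ∧ LinearMap.det T = t := by
  classical
  obtain ⟨U, hU, hinv, hmin⟩ := exists_minimal_invariant x
  obtain ⟨U', hU'inv, hcompl⟩ := Module.End.isSemisimple_iff.1 hx U
    ((Module.End.mem_invtSubmodule_iff_forall_mem_of_mem x).2 hinv)
  have hinv' : ∀ v ∈ U', x v ∈ U' := (Module.End.mem_invtSubmodule_iff_forall_mem_of_mem x).1 hU'inv
  obtain ⟨E, _, _, Φ, r, hΦ⟩ := exists_field_model x U hU hinv hmin
  have hfin : Module.Finite F E := Module.Finite.equiv Φ.symm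
  have hfinE : Finite E := Module.finite_of_finite F
  obtain ⟨a, ha⟩ := FiniteField.norm_surjective F E t
  let Ta : End F U := Φ.conj (LinearMap.mulLeft F a)
  have hTa : ∀ b, Ta (Φ b) = Φ (a * b) := by
    intro b
    simp [Ta, LinearEquiv.conj_apply]
  have hdetTa : LinearMap.det Ta = t := by
    have h0 : Ta = (Φ : E →ₗ[F] U) ∘ₗ LinearMap.mulLeft F a ∘ₗ (Φ.symm : U →ₗ[F] E) := rfl
    rw [h0, LinearMap.det_conj, ← ha, Algebra.norm_apply]
    rfl
  let e : (U × U') ≃ₗ[F] V := Submodule.prodEquivOfIsCompl U U' hcompl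
  have he : ∀ p, e p = (p.1 : V) + (p.2 : V) := fun p => rfl
  let T : End F V := e.conj (Ta.prodMap LinearMap.id)
  have hTe : ∀ p, T (e p) = e (Ta p.1, p.2) := by
    intro p
    simp [T, LinearEquiv.conj_apply]
  have hxe : ∀ p, x (e p) = e (x.restrict hinv p.1, x.restrict hinv' p.2) := by
    intro p
    rw [he, he, map_add]
    rfl
  refine ⟨T, ?_, ?_⟩
  · apply LinearMap.ext
    intro v
    obtain ⟨p, rfl⟩ := e.surjective v
    rw [Module.End.mul_apply, Module.End.mul_apply, hxe, hTe, hTe, hxe]
    congr 2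
    obtain ⟨b, hb⟩ := Φ.surjective p.1
    rw [← hb, ← hΦ, hTa, hTa, ← hΦ, mul_left_comm]
  · have h0 : T = (e : (U × U') →ₗ[F] V) ∘ₗ (Ta.prodMap LinearMap.id) ∘ₗ
        (e.symm : V →ₗ[F] (U × U')) := rfl
    rw [h0, LinearMap.det_conj, LinearMap.det_prodMap, hdetTa, LinearMap.det_id, mul_one]

end Cfsg.Agent.Lib.Linalg.SemisimpleCentralizer
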