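import Mathlib
import Cfsg.Agent.Lib.Linalg.Bridge
import Cfsg.Agent.Lib.Linalg.TransvectionForm

/-!
# The centralizer of a transvection in `GL`

`GL` acts transitively on the flags `(v, w)` with `v, w ≠ 0`, `w ⬝ᵥ v = 0`. The order of the centralizer of
`1 + vecMulVec v w` follows from two orbit-stabilizer computations.
-/

set_option autoImplicit false

open Matrix Module

namespace Cfsg.Agent.Lib.Linalg.TransvectionCentralizer

open Cfsg.Agent.Lib.Linalg.Bridge Cfsg.Agent.Lib.Linalg.TransvectionForm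

variable {ι : Type*} [Fintype ι] [DecidableEq ι] {F : Type*} [Field F]

variable (ι F) in
/-- Flags: a nonzero vector and a nonzero row vector annihilating it. -/
def Flag : Type _ := {p : (ι → F) × (ι → F) // p.1 ≠ 0 ∧ p.2 ≠ 0 ∧ p.2 ⬝ᵥ p.1 = 0}

omit [DecidableEq ι] in
theorem flag_ext {x y : Flag ι F} (h1 : x.1.1 = y.1.1) (h2 : x.1.2 = y.1.2) : x = y :=
  Subtype.ext (Prod.ext h1 h2)

/-- `GL` acts on flags. -/
noncomputable def flagSMul (g : GL ι F) (x : Flag ι F) : Flag ι F :=
  ⟨((g : Matrix ι ι F).mulVec x.1.1, vecMul x.1.2 ((g⁻¹ : GL ι F) : Matrix ι ι F)), by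
    obtain ⟨⟨v, w⟩, hv, hw, hwv⟩ := x
    refine ⟨?_, ?_, ?_⟩
    · intro h
      apply hv
      have := congrArg (((g⁻¹ : GL ι F) : Matrix ι ι F).mulVec) h
      simpa [Matrix.mulVec_mulVec] using this
    · intro h
      apply hw
      have := congrArg (fun z => vecMul z (g : Matrix ι ι F)) h
      simpa [Matrix.vecMul_vecMul] using this
    · change vecMul w _ ⬝ᵥ (g : Matrix ι ι F).mulVec v = 0
      rw [Matrix.dotProduct_mulVec, Matrix.vecMul_vecMul]
      simpa using hwv⟩

/-- The action of `GL` on flags. -/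
noncomputable instance flagMulAction : MulAction (GL ι F) (Flag ι F) where
  smul := flagSMul
  one_smul x := by
    apply flag_ext
    · change ((1 : GL ι F) : Matrix ι ι F).mulVec x.1.1 = x.1.1
      simp
    · change vecMul x.1.2 (((1 : GL ι F)⁻¹ : GL ι F) : Matrix ι ι F) = x.1.2
      simp
  mul_smul g h x := by
    apply flag_ext
    · change ((g * h : GL ι F) : Matrix ι ι F).mulVec x.1.1 =
        (g : Matrix ι ι F).mulVec ((h : Matrix ι ι F).mulVec x.1.1)
      simp [Matrix.mulVec_mulVec]
    · change vecMul x.1.2 (((g * h)⁻¹ : GL ι F) : Matrix ι ι F) =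
        vecMul (vecMul x.1.2 ((h⁻¹ : GL ι F) : Matrix ι ι F)) ((g⁻¹ : GL ι F) : Matrix ι ι F)
      simp [Matrix.vecMul_vecMul]

theorem smul_fst (g : GL ι F) (x : Flag ι F) :
    (g • x).1.1 = (g : Matrix ι ι F).mulVec x.1.1 := rfl

theorem smul_snd (g : GL ι F) (x : Flag ι F) :
    (g • x).1.2 = vecMul x.1.2 ((g⁻¹ : GL ι F) : Matrix ι ι F) := rfl

/-- `GL` is transitive on flags. -/
instance flag_isPretransitive : MulAction.IsPretransitive (GL ι F) (Flag ι F) where
  exists_smul_eq := by
    intro x y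
    obtain ⟨g, hg, hg2⟩ := exists_equiv_of_dot_flag x.2.1 y.2.1 x.2.2.1 y.2.2.1 x.2.2.2 y.2.2.2
    refine ⟨glOfEquiv g, flag_ext ?_ ?_⟩
    · rw [smul_fst]
      simpa using hg
    · rw [smul_snd]
      -- `y₂ ⬝ᵥ g z = x₂ ⬝ᵥ z` for all `z`
      ext i
      have h := hg2 ((((glOfEquiv g)⁻¹ : GL ι F) : Matrix ι ι F).mulVec (Pi.single i 1))
      rw [← glOfEquiv_mulVec, Matrix.mulVec_mulVec, ← Units.val_mul] at h
      simp only [mul_inv_cancel, Units.val_one, Matrix.one_mulVec] at h
      rw [Matrix.dotProduct_mulVec] at h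
      simpa using h.symm

/-- Two nonzero rank one decompositions are proportional. -/
theorem vecMulVec_eq_iff {v w a b : ι → F} (hv : v ≠ 0) (hw : w ≠ 0)
    (h : vecMulVec a b = vecMulVec v w) : ∃ c : F, c ≠ 0 ∧ a = c • v ∧ b = c⁻¹ • w := by
  obtain ⟨i, hi⟩ := Function.ne_iff.mp hv
  obtain ⟨j, hj⟩ := Function.ne_iff.mp hw
  simp only [Pi.zero_apply] at hi hj
  have hij : a i * b j = v i * w j := by
    have := congrFun (congrFun h i) j
    simpa [vecMulVec_apply] using this
  have hai : a i ≠ 0 := fun h0 => by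
    rw [h0, zero_mul] at hij
    exact mul_ne_zero hi hj hij.symm
  have hbj : b j ≠ 0 := fun h0 => by
    rw [h0, mul_zero] at hij
    exact mul_ne_zero hi hj hij.symm
  refine ⟨a i / v i, div_ne_zero hai hi, ?_, ?_⟩
  · funext k
    have h1 := congrFun (congrFun h k) j
    simp only [vecMulVec_apply] at h1
    simp only [Pi.smul_apply, smul_eq_mul]
    have h2 : a k * v i = a i * v k := by
      apply mul_right_cancel₀ hbj
      linear_combination (v i) * h1 - (v k) * hij
    field_simp
    linear_combination h2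
  · funext k
    have h1 := congrFun (congrFun h i) k
    simp only [vecMulVec_apply] at h1
    simp only [Pi.smul_apply, smul_eq_mul]
    field_simp
    linear_combination h1

/-- The transvection attached to a flag, as a matrix. -/
def flagMatrix (x : Flag ι F) : Matrix ι ι F := 1 + vecMulVec x.1.1 x.1.2

/-- Conjugating `t = 1 + v wᵀ`. -/
theorem mul_flagMatrix_mul_inv (g : GL ι F) (x : Flag ι F) :
    (g : Matrix ι ι F) * flagMatrix x * ((g⁻¹ : GL ι F) : Matrix ι ι F) = flagMatrix (g • x) := by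
  unfold flagMatrix
  rw [mul_add, add_mul, mul_one, Units.mul_inv, mul_vecMulVec, vecMulVec_mul]
  rfl

/-- An element centralizes `1 + v wᵀ` iff it moves `(v, w)` to `(c v, c⁻¹ w)`. -/
theorem mem_centralizer_iff (t : GL ι F) (x : Flag ι F) (ht : (t : Matrix ι ι F) = flagMatrix x)
    (g : GL ι F) :
    g ∈ Subgroup.centralizer ({t} : Set (GL ι F)) ↔
      ∃ c : F, c ≠ 0 ∧ (g • x).1.1 = c • x.1.1 ∧ (g • x).1.2 = c⁻¹ • x.1.2 := by
  rw [Subgroup.mem_centralizer_singleton_iff]
  have key : g * t = t * g ↔ flagMatrix (g • x) = flagMatrix x := by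
    rw [← mul_flagMatrix_mul_inv, ← ht]
    constructor
    · intro h
      have := congrArg (fun u : GL ι F => (u : Matrix ι ι F)) h
      simp only [Units.val_mul] at this
      rw [this, mul_assoc, Units.mul_inv, mul_one]
    · intro h
      apply Units.ext
      rw [Units.val_mul, Units.val_mul]
      conv_rhs => rw [← h]
      rw [mul_assoc (g : Matrix ι ι F) (t : Matrix ι ι F), mul_assoc (g : Matrix ι ι F),
        mul_assoc (t : Matrix ι ι F), Units.inv_mul, mul_one]
  rw [key]
  unfold flagMatrix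
  rw [add_right_inj]
  constructor
  · exact vecMulVec_eq_iff x.2.1 x.2.2.1
  · rintro ⟨c, hc, h1, h2⟩
    rw [h1, h2]
    ext i j
    simp only [vecMulVec_apply, Pi.smul_apply, smul_eq_mul]
    field_simp

/-- The stabilizer of a flag lies in the centralizer; the orbit of the flag under the centralizer
consists of its scalings. So `|C(t)| = (q - 1) |Stab(x)|`. -/
theorem card_centralizer_eq [Finite F] (t : GL ι F) (x : Flag ι F)
    (ht : (t : Matrix ι ι F) = flagMatrix x) :
    Nat.card (Subgroup.centralizer ({t} : Set (GL ι F))) =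
      (Nat.card F - 1) * Nat.card (MulAction.stabilizer (GL ι F) x) := by
  classical
  set H := Subgroup.centralizer ({t} : Set (GL ι F)) with hH
  set S := MulAction.stabilizer (GL ι F) x with hS
  have hSH : S ≤ H := by
    intro g hg
    rw [hH, mem_centralizer_iff t x ht]
    refine ⟨1, one_ne_zero, ?_, ?_⟩
    · rw [MulAction.mem_stabilizer_iff.mp hg]; simp
    · rw [MulAction.mem_stabilizer_iff.mp hg]; simp
  have hstab : MulAction.stabilizer H x = S.subgroupOf H := by
    ext h
    simp only [MulAction.mem_stabilizer_iff, Subgroup.mem_subgroupOf, hS]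
    rfl
  have h1 := (MulAction.stabilizer H x).card_mul_index
  rw [MulAction.index_stabilizer, hstab,
    Nat.card_congr (Subgroup.subgroupOfEquivOfLe hSH).toEquiv] at h1
  -- the orbit
  have horbit : (MulAction.orbit H x).ncard = Nat.card F - 1 := by
    have hv := x.2.1
    set φ : Fˣ → Flag ι F := fun c => ⟨((c : F) • x.1.1, ((c : F))⁻¹ • x.1.2), by
      refine ⟨smul_ne_zero c.ne_zero x.2.1, smul_ne_zero (inv_ne_zero c.ne_zero) x.2.2.1, ?_⟩
      change ((c : F))⁻¹ • x.1.2 ⬝ᵥ (c : F) • x.1.1 = 0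
      rw [smul_dotProduct, dotProduct_smul, x.2.2.2]
      simp⟩ with hφ
    have himg : MulAction.orbit H x = Set.range φ := by
      ext y
      constructor
      · rintro ⟨h, rfl⟩
        obtain ⟨c, hc, h1, h2⟩ := (mem_centralizer_iff t x ht h.1).mp h.2
        refine ⟨Units.mk0 c hc, flag_ext ?_ ?_⟩
        · exact h1.symm
        · exact h2.symm
      · rintro ⟨c, rfl⟩
        obtain ⟨g, hg⟩ := MulAction.exists_smul_eq (GL ι F) x (φ c)
        have hmem : g ∈ H := by
          rw [hH, mem_centralizer_iff t x ht]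
          refine ⟨c, c.ne_zero, ?_, ?_⟩
          · rw [hg]
          · rw [hg]
        exact ⟨⟨g, hmem⟩, hg⟩
    have hinj : Function.Injective φ := by
      intro c d h
      have h2 := congrArg (fun y : Flag ι F => y.1.1) h
      simp only [hφ] at h2
      obtain ⟨i, hi⟩ := Function.ne_iff.mp hv
      have h3 := congrFun h2 i
      simp only [Pi.smul_apply, smul_eq_mul] at h3
      exact Units.ext (mul_right_cancel₀ hi h3)
    rw [himg, ← Set.image_univ, Set.ncard_image_of_injective _ hinj, Set.ncard_univ, Nat.card_units]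
  rw [horbit] at h1
  rw [← h1, mul_comm]

/-- `|GL| = #flags · |Stab(x)|`. -/
theorem card_GL_eq_flag_mul [Finite F] (x : Flag ι F) :
    Nat.card (GL ι F) = Nat.card (Flag ι F) * Nat.card (MulAction.stabilizer (GL ι F) x) := by
  have h1 := (MulAction.stabilizer (GL ι F) x).card_mul_index
  rw [MulAction.index_stabilizer, MulAction.orbit_eq_univ, Set.ncard_univ] at h1
  rw [← h1, mul_comm]

/-- The number of flags. -/
theorem card_flag [Fintype F] :
    Nat.card (Flag ι F) = (Fintype.card F ^ Fintype.card ι - 1) *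
      (Fintype.card F ^ (Fintype.card ι - 1) - 1) := by
  classical
  -- for fixed `v ≠ 0`, count `w`
  have hw : ∀ v : {v : ι → F // v ≠ 0},
      Nat.card {w : ι → F // w ≠ 0 ∧ w ⬝ᵥ v.1 = 0} = Fintype.card F ^ (Fintype.card ι - 1) - 1 := by
    rintro ⟨v, hv⟩
    set K := LinearMap.ker (dotProductEquiv F ι v) with hK
    have hrank : finrank F K = Fintype.card ι - 1 := by
      have h1 := LinearMap.finrank_range_add_finrank_ker (dotProductEquiv F ι v)
      have h2 : LinearMap.range (dotProductEquiv F ι v) = ⊤ := by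
        rw [LinearMap.range_eq_top]
        obtain ⟨x, hx⟩ : ∃ x, dotProductEquiv F ι v x ≠ 0 := by
          by_contra hcon
          push Not at hcon
          exact hv ((dotProductEquiv F ι).map_eq_zero_iff.mp (LinearMap.ext hcon))
        exact LinearMap.surjective_of_ne_zero (fun h => hx (by rw [h]; rfl))
      rw [h2, finrank_top, finrank_self, Module.finrank_fintype_fun_eq_card] at h1
      rw [hK]
      omega
    have hcardK : Nat.card K = Fintype.card F ^ (Fintype.card ι - 1) := by
      rw [Nat.card_eq_fintype_card, Module.card_eq_pow_finrank (K := F), hrank]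
    have heq : {w : ι → F // w ≠ 0 ∧ w ⬝ᵥ v = 0} ≃ {w : K // w ≠ 0} :=
      { toFun := fun w => ⟨⟨w.1, by
            change dotProductEquiv F ι v w.1 = 0
            rw [dotProductEquiv_apply_apply, dotProduct_comm]
            exact w.2.2⟩, fun h => w.2.1 (congrArg Subtype.val h)⟩
        invFun := fun w => ⟨w.1.1, fun h => w.2 (Subtype.ext h), by
            have := w.1.2
            change dotProductEquiv F ι v w.1.1 = 0 at this
            rw [dotProductEquiv_apply_apply, dotProduct_comm] at this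
            exact this⟩
        left_inv := fun _ => rfl
        right_inv := fun _ => rfl }
    rw [Nat.card_congr heq, ← hcardK, Nat.card_eq_fintype_card, Nat.card_eq_fintype_card,
      Fintype.card_subtype_compl, Fintype.card_subtype_eq]
  -- flags as a sigma type
  have heq : Flag ι F ≃ Σ v : {v : ι → F // v ≠ 0}, {w : ι → F // w ≠ 0 ∧ w ⬝ᵥ v.1 = 0} :=
    { toFun := fun x => ⟨⟨x.1.1, x.2.1⟩, ⟨x.1.2, x.2.2⟩⟩
      invFun := fun y => ⟨(y.1.1, y.2.1), y.1.2, y.2.2⟩
      left_inv := fun _ => rfl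
      right_inv := fun _ => rfl }
  rw [Nat.card_congr heq, Nat.card_sigma]
  simp_rw [hw]
  rw [Finset.sum_const, Finset.card_univ, smul_eq_mul]
  congr 1
  rw [Fintype.card_subtype_compl, Fintype.card_subtype_eq, Fintype.card_fun]

/-- The order of `GL_{m+2}(q)` factored through flags. -/
theorem prod_card_GL_succ_succ (q m : ℕ) (hq : 1 ≤ q) :
    ∏ i : Fin (m + 2), (q ^ (m + 2) - q ^ (i : ℕ)) =
      (q ^ (m + 2) - 1) * (q ^ (m + 1) - 1) * (q ^ (2 * m + 1) *
        ∏ i : Fin m, (q ^ m - q ^ (i : ℕ))) := by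
  rw [Fin.prod_univ_succ, Fin.prod_univ_succ]
  simp only [Fin.val_zero, pow_zero, Fin.val_succ]
  have h1 : q ^ (m + 2) - q ^ (0 + 1) = q * (q ^ (m + 1) - 1) := by
    rw [Nat.mul_sub, mul_one, zero_add, pow_one, pow_succ q (m + 1), mul_comm]
  have h2 : ∀ i : Fin m, q ^ (m + 2) - q ^ ((i : ℕ) + 1 + 1) = q ^ 2 * (q ^ m - q ^ (i : ℕ)) := by
    intro i
    rw [Nat.mul_sub, ← pow_add, ← pow_add]
    congr 2 <;> ring
  rw [h1]
  simp_rw [h2]
  rw [Finset.prod_mul_distrib, Finset.prod_const, Finset.card_univ, Fintype.card_fin, ← pow_mul]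
  ring

/-- The order of the centralizer of a transvection. -/
theorem card_centralizer_transvection [Fintype F] {n : ℕ} (hn : 2 ≤ n) (t : GL (Fin n) F)
    (h1 : ((t : Matrix (Fin n) (Fin n) F) - 1).rank = 1)
    (h2 : ((t : Matrix (Fin n) (Fin n) F) - 1) * ((t : Matrix (Fin n) (Fin n) F) - 1) = 0) :
    Nat.card (Subgroup.centralizer ({t} : Set (GL (Fin n) F))) =
      Fintype.card F ^ (2 * n - 3) * (Fintype.card F - 1) *
        ∏ i : Fin (n - 2), (Fintype.card F ^ (n - 2) - Fintype.card F ^ (i : ℕ)) := by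
  classical
  obtain ⟨m, rfl⟩ : ∃ m, n = m + 2 := ⟨n - 2, by omega⟩
  obtain ⟨v, w, hv, hw, hwv, ht⟩ := exists_form_of_transvection h1 h2
  set x : Flag (Fin (m + 2)) F := ⟨(v, w), hv, hw, hwv⟩ with hx
  set q := Fintype.card F with hq
  have hq1 : 1 < q := Fintype.one_lt_card
  have hC := card_centralizer_eq t x ht
  have hG := card_GL_eq_flag_mul x
  rw [Matrix.card_GL_field, card_flag, prod_card_GL_succ_succ _ _ hq1.le] at hG
  simp only [Fintype.card_fin, Nat.add_sub_cancel] at hG
  have hpos1 : 0 < q ^ (m + 2) - 1 := Nat.sub_pos_of_lt (Nat.one_lt_pow (by omega) hq1)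
  have hpos2 : 0 < q ^ (m + 1) - 1 := Nat.sub_pos_of_lt (Nat.one_lt_pow (by omega) hq1)
  have hstab := Nat.eq_of_mul_eq_mul_left (Nat.mul_pos hpos1 hpos2) hG
  rw [hC, ← hstab, Nat.card_eq_fintype_card, ← hq]
  rw [show 2 * (m + 2) - 3 = 2 * m + 1 by omega, show m + 2 - 2 = m by omega]
  ring

end Cfsg.Agent.Lib.Linalg.TransvectionCentralizer
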